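import Cfsg.Agent.H883.Sub
import Cfsg.Agent.H883.Root
set_option linter.all false

/-!
Orthogonal decompositions `D : Fin t → Submodule F V` of a quadratic space together with their projections
(`Dec Q D p`), reflections in vectors of the members, and a criterion for membership in `stabFamily D`.
-/

set_option autoImplicit false

namespace Cfsg.Agent.H886.Decomp

open QuadraticMap Cfsg.Agent.LieClassical.OrthCore Cfsg.Agent.LieClassical.OrthTrans
  Cfsg.Agent.LieClassical.OrthFinite Cfsg.Agent.LieClassical.OrthSimple Cfsg.Agent.H883.Bridge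
  Cfsg.Agent.H883.Root Cfsg.Agent.H883.Sub

variable {F V : Type*} [Field F] [AddCommGroup V] [Module F V] {Q : QuadraticForm F V} {t : ℕ}
  {D : Fin t → Submodule F V} {p : Fin t → V →ₗ[F] V}

/-- An orthogonal decomposition with its projections. -/
structure Dec (Q : QuadraticForm F V) (D : Fin t → Submodule F V) (p : Fin t → V →ₗ[F] V) : Prop where
  orth : ∀ i j, i ≠ j → ∀ x ∈ D i, ∀ y ∈ D j, polar Q x y = 0
  mem : ∀ i x, p i x ∈ D i
  sum : ∀ x, ∑ i, p i x = x
  self : ∀ i, ∀ x ∈ D i, p i x = x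
  other : ∀ i j, i ≠ j → ∀ x ∈ D j, p i x = 0

/-- The members of an orthogonal decomposition are nondegenerate. -/
theorem nondegOn_of_orth (hQ : Nondeg Q)
    (horth : ∀ i j, i ≠ j → ∀ x ∈ D i, ∀ y ∈ D j, polar Q x y = 0) (hspan : iSup D = ⊤) (i : Fin t) :
    NondegOn Q (D i) := by
  intro x hx h
  apply hQ
  intro y
  have hy : y ∈ iSup D := by rw [hspan]; exact Submodule.mem_top
  induction hy using Submodule.iSup_induction' with
  | mem j y hy =>
    by_cases hij : i = j
    · subst hij
      exact h y hy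
    · exact horth i j hij x hx y hy
  | zero => exact polar_zero_right Q x
  | add y z _ _ h1 h2 => rw [polar_add_right, h1, h2, add_zero]

/-- Existence of the projections. -/
theorem exists_dec [FiniteDimensional F V] (hQ : Nondeg Q)
    (horth : ∀ i j, i ≠ j → ∀ x ∈ D i, ∀ y ∈ D j, polar Q x y = 0) (hspan : iSup D = ⊤) :
    ∃ p : Fin t → V →ₗ[F] V, Dec Q D p := by
  have hc : ∀ i, IsCompl (D i) (perp Q (D i)) := fun i => (nondegOn_of_orth hQ horth hspan i).isCompl
  have hself : ∀ i, ∀ x ∈ D i, (((D i).projectionOnto _ (hc i) x : D i) : V) = x := by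
    intro i x hx
    have := Submodule.projectionOnto_apply_left (hc i) ⟨x, hx⟩
    rw [this]
  have hother : ∀ i j, i ≠ j → ∀ x ∈ D j, (((D i).projectionOnto _ (hc i) x : D i) : V) = 0 := by
    intro i j hij x hx
    have hx' : x ∈ perp Q (D i) := fun w hw => horth i j hij w hw x hx
    have := Submodule.projectionOnto_apply_right (hc i) ⟨x, hx'⟩
    rw [this]
    rfl
  refine ⟨fun i => (D i).subtype ∘ₗ (D i).projectionOnto _ (hc i), horth, ?_, ?_, hself, hother⟩
  · intro i x
    exact Submodule.coe_mem _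
  · intro x
    have hx : x ∈ iSup D := by rw [hspan]; exact Submodule.mem_top
    induction hx using Submodule.iSup_induction' with
    | mem j x hx =>
      rw [Finset.sum_eq_single j]
      · exact hself j x hx
      · intro i _ hij
        exact hother i j hij x hx
      · intro h
        exact absurd (Finset.mem_univ j) h
    | zero => simp
    | add y z _ _ h1 h2 =>
      simp only [map_add, Finset.sum_add_distrib] at *
      rw [h1, h2]

namespace Dec

theorem ext (h : Dec Q D p) {x y : V} (hxy : ∀ i, p i x = p i y) : x = y := by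
  rw [← h.sum x, ← h.sum y]
  exact Finset.sum_congr rfl fun i _ => hxy i

theorem span (h : Dec Q D p) : iSup D = ⊤ := by
  rw [eq_top_iff]
  intro x _
  rw [← h.sum x]
  exact Submodule.sum_mem _ fun i _ => Submodule.mem_iSup_of_mem i (h.mem i x)

theorem nondegOn (h : Dec Q D p) (hQ : Nondeg Q) (i : Fin t) : NondegOn Q (D i) :=
  nondegOn_of_orth hQ h.orth h.span i

theorem eq_zero (h : Dec Q D p) {x : V} (hx : ∀ i, p i x = 0) : x = 0 :=
  h.ext fun i => by rw [hx, map_zero]

theorem eq_zero_of_mem (h : Dec Q D p) {i j : Fin t} (hij : i ≠ j) {x : V} (hi : x ∈ D i)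
    (hj : x ∈ D j) : x = 0 := by
  rw [← h.self i x hi]
  exact h.other i j hij x hj

theorem mem_of (h : Dec Q D p) {i : Fin t} {x : V} (hx : ∀ j, j ≠ i → p j x = 0) : x ∈ D i := by
  rw [← h.sum x, Finset.sum_eq_single i]
  · exact h.mem i x
  · intro j _ hj
    exact hx j hj
  · intro h'
    exact absurd (Finset.mem_univ i) h'

theorem exists_ne (h : Dec Q D p) {i : Fin t} {x : V} (hx : x ∉ D i) : ∃ j, j ≠ i ∧ p j x ≠ 0 := by
  by_contra hc
  push Not at hc
  exact hx (h.mem_of hc)

/-- `polar Q x y` for `y` in the member `D i` only depends on the component `p i x`. -/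
theorem polar_left (h : Dec Q D p) (i : Fin t) (x : V) {y : V} (hy : y ∈ D i) :
    polar Q x y = polar Q (p i x) y := by
  have h1 : polar Q (∑ j, p j x) y = ∑ j, polar Q (p j x) y := by
    exact map_sum ((polarBilin Q).flip y) (fun j => p j x) Finset.univ
  rw [h.sum] at h1
  rw [h1, Finset.sum_eq_single i]
  · intro j _ hj
    exact h.orth j i hj _ (h.mem j x) y hy
  · intro h'
    exact absurd (Finset.mem_univ i) h'

theorem polar_right (h : Dec Q D p) (i : Fin t) {x : V} (y : V) (hx : x ∈ D i) :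
    polar Q x y = polar Q x (p i y) := by
  rw [polar_comm, h.polar_left i y hx, polar_comm]

/-- Conjugate of a decomposition by an isometry. -/
theorem map (h : Dec Q D p) {g : V ≃ₗ[F] V} (hg : g ∈ O Q) :
    Dec Q (fun i => (D i).map (g : V →ₗ[F] V))
      (fun i => (g : V →ₗ[F] V) ∘ₗ p i ∘ₗ (g.symm : V →ₗ[F] V)) where
  orth := by
    rintro i j hij _ ⟨x, hx, rfl⟩ _ ⟨y, hy, rfl⟩
    exact (polar_map hg x y).trans (h.orth i j hij x hx y hy)
  mem i x := ⟨p i (g.symm x), h.mem i _, rfl⟩
  sum x := by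
    show ∑ i, g (p i (g.symm x)) = x
    rw [← map_sum, h.sum, LinearEquiv.apply_symm_apply]
  self := by
    rintro i _ ⟨x, hx, rfl⟩
    show g (p i (g.symm (g x))) = g x
    rw [LinearEquiv.symm_apply_apply, h.self i x hx]
  other := by
    rintro i j hij _ ⟨x, hx, rfl⟩
    show g (p i (g.symm (g x))) = 0
    rw [LinearEquiv.symm_apply_apply, h.other i j hij x hx, map_zero]

/-! ### Reflections in vectors of the members -/

theorem refl_of_mem (h : Dec Q D p) {i : Fin t} {a : V} (ha : a ∈ D i) (hQa : Q a ≠ 0) (x : V) :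
    refl Q a hQa x = x - ((Q a)⁻¹ * polar Q a (p i x)) • a := by
  rw [refl_apply, h.polar_right i x ha]

theorem proj_refl (h : Dec Q D p) {i : Fin t} {a : V} (ha : a ∈ D i) (hQa : Q a ≠ 0) (x : V) :
    p i (refl Q a hQa x) = refl Q a hQa (p i x) := by
  rw [refl_apply, refl_apply, map_sub, map_smul, h.self i a ha, h.polar_right i x ha]

theorem proj_refl_ne (h : Dec Q D p) {i j : Fin t} (hij : j ≠ i) {a : V} (ha : a ∈ D i)
    (hQa : Q a ≠ 0) (x : V) : p j (refl Q a hQa x) = p j x := by
  rw [refl_apply, map_sub, map_smul, h.other j i hij a ha, smul_zero, sub_zero]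

theorem refl_mem (h : Dec Q D p) {i : Fin t} {a : V} (ha : a ∈ D i) (hQa : Q a ≠ 0) {j : Fin t}
    {x : V} (hx : x ∈ D j) : refl Q a hQa x ∈ D j := by
  by_cases hij : i = j
  · subst hij
    rw [refl_apply]
    exact (D i).sub_mem hx ((D i).smul_mem _ ha)
  · rw [refl_apply, h.orth i j hij a ha x hx, mul_zero, zero_smul, sub_zero]
    exact hx

theorem refl_mem_stabFamily (h : Dec Q D p) {i : Fin t} {a : V} (ha : a ∈ D i) (hQa : Q a ≠ 0) :
    refl Q a hQa ∈ stabFamily D := by
  refine ⟨1, fun j => le_antisymm ?_ ?_⟩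
  · rintro _ ⟨x, hx, rfl⟩
    exact h.refl_mem ha hQa hx
  · intro x hx
    refine ⟨refl Q a hQa x, h.refl_mem ha hQa hx, ?_⟩
    exact LinearEquiv.congr_fun (refl_mul_self hQa) x

theorem refl_mul_refl_mem (h : Dec Q D p) (hG : Good Q) {i j : Fin t} {a b : V} (ha : a ∈ D i)
    (hb : b ∈ D j) (hQa : Q a ≠ 0) (hQb : Q b ≠ 0) (hab : Q a = Q b) :
    refl Q a hQa * refl Q b hQb ∈ stabFamily D ⊓ E Q :=
  ⟨(stabFamily D).mul_mem (h.refl_mem_stabFamily ha hQa) (h.refl_mem_stabFamily hb hQb),
    hG.refl_mul_refl_mem hQb hQa hab.symm⟩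

/-- A linear automorphism mapping every member into a member permutes the members. -/
theorem mem_stabFamily_of_forall [FiniteDimensional F V] (h : Dec Q D p) {k : ℕ} (hk : 0 < k)
    (hfin : ∀ i, Module.finrank F (D i) = k) {m : V ≃ₗ[F] V}
    (hm : ∀ i, ∃ j, ∀ x ∈ D i, m x ∈ D j) : m ∈ stabFamily D := by
  choose σ hσ using hm
  have hmap : ∀ i, (D i).map (m : V →ₗ[F] V) = D (σ i) := by
    intro i
    refine Submodule.eq_of_le_of_finrank_eq ?_ ?_
    · rintro _ ⟨x, hx, rfl⟩
      exact hσ i x hx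
    · rw [LinearEquiv.finrank_map_eq, hfin, hfin]
  have hinj : Function.Injective σ := by
    intro i j hij
    by_contra hne
    have h1 : (D i).map (m : V →ₗ[F] V) = (D j).map (m : V →ₗ[F] V) := by rw [hmap, hmap, hij]
    have h2 : D i = D j := Submodule.map_injective_of_injective m.injective h1
    have h3 : D i ≠ ⊥ := by
      intro h4
      have := hfin i
      rw [h4, finrank_bot] at this
      omega
    obtain ⟨x, hx, hx0⟩ := Submodule.exists_mem_ne_zero_of_ne_bot h3
    exact hx0 (h.eq_zero_of_mem hne hx (h2 ▸ hx))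
  exact ⟨Equiv.ofBijective σ (Finite.injective_iff_bijective.1 hinj), hmap⟩

end Dec

/-- Conjugation of `stabFamily`. -/
theorem mem_stabFamily_map {g m : V ≃ₗ[F] V} (h : g⁻¹ * m * g ∈ stabFamily D) :
    m ∈ stabFamily (fun i => (D i).map (g : V →ₗ[F] V)) := by
  obtain ⟨σ, hσ⟩ := h
  refine ⟨σ, fun i => ?_⟩
  show ((D i).map (g : V →ₗ[F] V)).map (m : V →ₗ[F] V) = (D (σ i)).map (g : V →ₗ[F] V)
  rw [← hσ i, ← Submodule.map_comp, ← Submodule.map_comp]
  congr 1
  ext x
  show m (g x) = g (g.symm (m (g x)))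
  rw [LinearEquiv.apply_symm_apply]

end Cfsg.Agent.H886.Decomp
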