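import Mathlib
import Cfsg.Prelude.Def_GeometricClasses
import Cfsg.Agent.H886.Basic
set_option linter.all false

-- part: H886/Between
section
/-!
A criterion for non-maximality of stabilisers of orthogonal decompositions, and the frame cases.
-/

set_option autoImplicit false
set_option linter.unusedSectionVars false

namespace Cfsg.Agent.H886

open Matrix Cfsg.Geo QuadraticMap
open scoped MatrixGroups

variable {ι : Type} [Fintype ι] [DecidableEq ι] {F : Type*} [Field F]

theorem not_mem_of_polar (Q : (ι → F) → F) {t : ℕ} {k : ℕ}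
    {D : Fin t → Submodule F (ι → F)} (hD : IsOrthogonalMDecomposition Q k D)
    (x y y' : ι → F) {j j' : Fin t} (hjj' : j ≠ j') (hy : y ∈ D j) (hy' : y' ∈ D j')
    (h : polar Q x y ≠ 0) (h' : polar Q x y' ≠ 0) (l : Fin t) : x ∉ D l := by
  intro hx
  have h1 : l = j := by
    by_contra hne
    exact h (hD.decomp.orthogonal l j hne x hx y hy)
  have h2 : l = j' := by
    by_contra hne
    exact h' (hD.decomp.orthogonal l j' hne x hx y' hy')
  exact hjj' (h1.symm.trans h2)

theorem mem_decompositionStabilizer_apply {t : ℕ} {D : Fin t → Submodule F (ι → F)}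
    {g : GL ι F} (hg : g ∈ decompositionStabilizer D) :
    ∃ σ : Equiv.Perm (Fin t), ∀ i, ∀ x ∈ D i, (g : Matrix ι ι F) *ᵥ x ∈ D (σ i) := by
  obtain ⟨σ, hσ⟩ := hg
  refine ⟨σ, fun i x hx => ?_⟩
  rw [← hσ i]
  exact ⟨x, hx, by simp⟩

theorem between_of_stabilizing [Finite F] (Q : (ι → F) → F) {t k : ℕ}
    (D : Fin t → Submodule F (ι → F)) (hD : IsOrthogonalMDecomposition Q k D) (S : Set (ι → F))
    (h1 : ∀ g : GL ι F, g ∈ decompositionStabilizer D → g ∈ omegaGL Q →
      ∀ v ∈ S, (g : Matrix ι ι F) *ᵥ v ∈ S)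
    (g1 : GL ι F) (hg1 : g1 ∈ omegaGL Q) (hg1S : ∀ v ∈ S, (g1 : Matrix ι ι F) *ᵥ v ∈ S)
    {i j j' : Fin t} (v y y' : ι → F) (hjj' : j ≠ j') (hv : v ∈ D i) (hy : y ∈ D j)
    (hy' : y' ∈ D j') (h : polar Q ((g1 : Matrix ι ι F) *ᵥ v) y ≠ 0)
    (h' : polar Q ((g1 : Matrix ι ι F) *ᵥ v) y' ≠ 0)
    (g2 : GL ι F) (hg2 : g2 ∈ omegaGL Q) (s : ι → F) (hs : s ∈ S)
    (hg2S : (g2 : Matrix ι ι F) *ᵥ s ∉ S) :
    ∃ K : Subgroup (GL ι F), decompositionStabilizer D ⊓ omegaGL Q < K ∧ K < omegaGL Q := by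
  refine ⟨Cfsg.stabilizing (Cfsg.glToMat ι F) S ⊓ omegaGL Q, ?_, ?_⟩
  · refine lt_of_le_of_ne ?_ ?_
    · intro g hg
      exact ⟨mem_stabilizing_of_forward S g (h1 g hg.1 hg.2), hg.2⟩
    · intro heq
      have hmem : g1 ∈ Cfsg.stabilizing (Cfsg.glToMat ι F) S ⊓ omegaGL Q :=
        ⟨mem_stabilizing_of_forward S g1 hg1S, hg1⟩
      rw [← heq] at hmem
      obtain ⟨σ, hσ⟩ := mem_decompositionStabilizer_apply hmem.1
      exact not_mem_of_polar Q hD _ y y' hjj' hy hy' h h' (σ i) (hσ i v hv)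
  · refine lt_of_le_of_ne inf_le_right ?_
    intro heq
    have hmem : g2 ∈ omegaGL Q := hg2
    rw [← heq] at hmem
    exact hg2S ((hmem.1 s).1 hs)

/-- The frame case: the `Q = c` vectors in the members form an orthogonal frame up to sign. -/
theorem frame_case [Finite F] (Q : (ι → F) → F) (hQ : IsNondegenerateQuadraticForm Q)
    (h2 : (2 : F) ≠ 0) {t k : ℕ}
    (D : Fin t → Submodule F (ι → F)) (hD : IsOrthogonalMDecomposition Q k D) (ht : 5 ≤ t)
    (hk : 2 ≤ k) (c : F) (hc : c ≠ 0) (v : Fin t → Fin k → (ι → F)) (hv : ∀ i a, v i a ∈ D i)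
    (hvc : ∀ i a, Q (v i a) = c) (horth : ∀ i a b, a ≠ b → polar Q (v i a) (v i b) = 0)
    (hchar : ∀ i, ∀ x ∈ D i, Q x = c → ∃ a, x = v i a ∨ x = - v i a) :
    ∃ K : Subgroup (GL ι F), decompositionStabilizer D ⊓ omegaGL Q < K ∧ K < omegaGL Q := by
  have hval : ∀ i a j b, polar Q (v i a) (v j b) = if i = j ∧ a = b then 2 * c else 0 := by
    intro i a j b
    by_cases hij : i = j
    · subst hij
      by_cases hab : a = b
      · subst hab
        simp [pl_self Q hQ, hvc]
      · simp [hab, horth i a b hab]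
    · simp [hij, hD.decomp.orthogonal i j hij _ (hv i a) _ (hv j b)]
  set S : Set (ι → F) := {x | ∃ i, x ∈ D i ∧ Q x = c} with hS
  have hSmem : ∀ x, x ∈ S ↔ ∃ i a, x = v i a ∨ x = - v i a := by
    intro x
    constructor
    · rintro ⟨i, hx, hxc⟩
      exact ⟨i, hchar i x hx hxc⟩
    · rintro ⟨i, a, rfl | rfl⟩
      · exact ⟨i, hv i a, hvc i a⟩
      · exact ⟨i, (D i).neg_mem (hv i a), by rw [q_neg Q hQ, hvc]⟩
  -- swapping two frame vectors
  have h2c : (2 : F) * c ≠ 0 := mul_ne_zero h2 hc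
  have hQd : ∀ i a j b, ¬ (i = j ∧ a = b) → Q (v i a - v j b) = 2 * c := by
    intro i a j b hne
    rw [q_sub Q hQ, hvc, hvc, hval, if_neg hne]; ring
  have hswap : ∀ i a j b, ¬ (i = j ∧ a = b) → ∀ l d, rf Q (v i a - v j b) (v l d) =
      if l = i ∧ d = a then v j b else if l = j ∧ d = b then v i a else v l d := by
    intro i a j b hne l d
    rw [rf_def, hQd i a j b hne, pl_sub_left Q hQ, hval, hval]
    by_cases h1 : l = i ∧ d = a
    · obtain ⟨rfl, rfl⟩ := h1
      have : ¬ (j = l ∧ b = d) := fun h => hne ⟨h.1.symm, h.2.symm⟩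
      simp only [and_self, if_true, if_neg this, sub_zero, inv_mul_cancel₀ h2c, one_smul]
      abel
    · have h1' : ¬ (i = l ∧ a = d) := fun h => h1 ⟨h.1.symm, h.2.symm⟩
      rw [if_neg h1, if_neg h1']
      by_cases h3 : l = j ∧ d = b
      · obtain ⟨rfl, rfl⟩ := h3
        simp only [and_self, if_true, zero_sub, mul_neg, inv_mul_cancel₀ h2c, neg_smul, one_smul]
        abel
      · have h3' : ¬ (j = l ∧ b = d) := fun h => h3 ⟨h.1.symm, h.2.symm⟩
        rw [if_neg h3, if_neg h3']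
        simp
  have hrfneg : ∀ u x, rf Q u (-x) = - rf Q u x := by
    intro u x
    rw [rf_def, rf_def, pl_neg_right Q hQ, mul_neg, neg_smul, neg_sub]
    abel
  have hswapS : ∀ i a j b, ¬ (i = j ∧ a = b) → ∀ x ∈ S, rf Q (v i a - v j b) x ∈ S := by
    intro i a j b hne x hx
    rw [hSmem] at hx ⊢
    have key : ∀ l d, ∃ l' d', rf Q (v i a - v j b) (v l d) = v l' d' := by
      intro l d
      rw [hswap i a j b hne]
      split_ifs
      · exact ⟨_, _, rfl⟩
      · exact ⟨_, _, rfl⟩
      · exact ⟨_, _, rfl⟩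
    obtain ⟨l, d, rfl | rfl⟩ := hx
    · obtain ⟨l', d', h⟩ := key l d
      exact ⟨l', d', Or.inl h⟩
    · obtain ⟨l', d', h⟩ := key l d
      exact ⟨l', d', Or.inr (by rw [hrfneg, h])⟩
  -- indices
  obtain ⟨i0, i1, i2, i3, i4, h01, h02, h03, h04, h12, h13, h14, h23, h24, h34⟩ :
      ∃ i0 i1 i2 i3 i4 : Fin t, i0 ≠ i1 ∧ i0 ≠ i2 ∧ i0 ≠ i3 ∧ i0 ≠ i4 ∧ i1 ≠ i2 ∧ i1 ≠ i3 ∧
        i1 ≠ i4 ∧ i2 ≠ i3 ∧ i2 ≠ i4 ∧ i3 ≠ i4 := by
    refine ⟨⟨0, by omega⟩, ⟨1, by omega⟩, ⟨2, by omega⟩, ⟨3, by omega⟩, ⟨4, by omega⟩, ?_⟩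
    simp [Fin.ext_iff]
  obtain ⟨a0, a1, ha⟩ : ∃ a0 a1 : Fin k, a0 ≠ a1 :=
    ⟨⟨0, by omega⟩, ⟨1, by omega⟩, by simp [Fin.ext_iff]⟩
  have n01 : ¬ (i0 = i1 ∧ a0 = a0) := fun h => h01 h.1
  have n02 : ¬ (i0 = i2 ∧ a0 = a0) := fun h => h02 h.1
  have n12 : ¬ (i1 = i2 ∧ a0 = a0) := fun h => h12 h.1
  have n04 : ¬ (i0 = i4 ∧ a0 = a0) := fun h => h04 h.1
  obtain ⟨g1, hg1, hg1a⟩ := exists_refl_comm Q hQ (v i0 a0 - v i1 a0) (v i1 a0 - v i2 a0)
    (by rw [hQd _ _ _ _ n01]; exact h2c) (by rw [hQd _ _ _ _ n12]; exact h2c)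
  have hrfsub : ∀ u x y, rf Q u (x - y) = rf Q u x - rf Q u y := by
    intro u x y
    rw [rf_def, rf_def, rf_def, pl_sub_right Q hQ, mul_sub, sub_smul]
    abel
  have hrfadd : ∀ u x y, rf Q u (x + y) = rf Q u x + rf Q u y := by
    intro u x y
    rw [rf_def, rf_def, rf_def, pl_add_right Q hQ, mul_add, add_smul]
    abel
  have e1 : rf Q (v i1 a0 - v i2 a0) (v i0 a0 - v i1 a0) = v i0 a0 - v i2 a0 := by
    rw [hrfsub, hswap _ _ _ _ n12, hswap _ _ _ _ n12]
    simp [h01, h02]
  rw [e1] at hg1a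
  set x : ι → F := v i0 a0 + v i1 a0 + v i2 a0 + v i3 a0 with hx
  have hQx : Q x = 4 * c := by
    rw [hx, q_add Q hQ, q_add Q hQ, q_add Q hQ]
    simp only [pl_add_left Q hQ, hval, hvc]
    simp [h01, h02, h03, h12, h13, h23]
    ring
  have h4c : (4 : F) * c ≠ 0 := by
    have : (4 : F) = 2 * 2 := by norm_num
    rw [this]
    exact mul_ne_zero (mul_ne_zero h2 h2) hc
  obtain ⟨g2, hg2, hg2a⟩ := exists_refl_comm Q hQ x (v i0 a0 - v i4 a0)
    (by rw [hQx]; exact h4c) (by rw [hQd _ _ _ _ n04]; exact h2c)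
  have e2 : rf Q (v i0 a0 - v i4 a0) x = v i4 a0 + v i1 a0 + v i2 a0 + v i3 a0 := by
    rw [hx, hrfadd, hrfadd, hrfadd, hswap _ _ _ _ n04, hswap _ _ _ _ n04, hswap _ _ _ _ n04,
      hswap _ _ _ _ n04]
    simp [h01.symm, h02.symm, h03.symm, h14, h24, h34]
  rw [e2] at hg2a
  have e3 : rf Q (v i4 a0 + v i1 a0 + v i2 a0 + v i3 a0) (v i0 a0) = v i0 a0 := by
    rw [rf_def]
    simp only [pl_add_left Q hQ, hval]
    simp [h01.symm, h02.symm, h03.symm, h04.symm]
  have e4 : (g2 : Matrix ι ι F) *ᵥ (v i0 a0) = v i0 a0 - (2 : F)⁻¹ • x := by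
    rw [hg2a, e3, rf_def, hQx]
    congr 2
    rw [hx]
    simp only [pl_add_left Q hQ, hval]
    simp [h01.symm, h02.symm, h03.symm]
    have : (4 : F) = 2 * 2 := by norm_num
    rw [this]
    field_simp
  refine between_of_stabilizing Q D hD S ?_ g1 hg1 ?_ (i := i0) (j := i2) (j' := i0)
    (v i0 a0 + v i0 a1) (v i2 a0) (v i0 a1) h02.symm ((D i0).add_mem (hv _ _) (hv _ _)) (hv _ _)
    (hv _ _) ?_ ?_ g2 hg2 (v i0 a0) ?_ ?_
  · intro g hg hgΩ w hw
    obtain ⟨i, hwi, hwc⟩ := hw
    obtain ⟨σ, hσ⟩ := mem_decompositionStabilizer_apply hg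
    exact ⟨σ i, hσ i w hwi, by rw [omega_isometry Q hQ g hgΩ, hwc]⟩
  · intro w hw
    rw [hg1a]
    exact hswapS _ _ _ _ n01 _ (hswapS _ _ _ _ n02 _ hw)
  · rw [hg1a, hrfadd, hswap _ _ _ _ n02, hswap _ _ _ _ n02, hrfadd]
    simp only [and_self, if_true, h02, ha.symm, and_false, false_and, if_false]
    rw [hswap _ _ _ _ n01, hswap _ _ _ _ n01, pl_add_left Q hQ]
    simp [h02.symm, h12.symm, ha.symm, h01, hval, h2, hc]
  · rw [hg1a, hrfadd, hswap _ _ _ _ n02, hswap _ _ _ _ n02, hrfadd]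
    simp only [and_self, if_true, h02, ha.symm, and_false, false_and, if_false]
    rw [hswap _ _ _ _ n01, hswap _ _ _ _ n01, pl_add_left Q hQ]
    simp [h02.symm, h12.symm, ha.symm, h01, hval, h2, hc]
  · exact ⟨i0, hv _ _, hvc _ _⟩
  · rw [e4]
    rintro ⟨l, hl, -⟩
    refine not_mem_of_polar Q hD _ (v i0 a0) (v i1 a0) h01 (hv _ _) (hv _ _) ?_ ?_ l hl
    · rw [pl_sub_left Q hQ, pl_smul_left Q hQ, hx]
      simp only [pl_add_left Q hQ, hval]
      simp only [h01.symm, h02.symm, h03.symm, and_self, if_true, false_and, if_false, add_zero]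
      rw [inv_mul_cancel_left₀ h2]
      intro h
      apply hc
      linear_combination h
    · rw [pl_sub_left Q hQ, pl_smul_left Q hQ, hx]
      simp only [pl_add_left Q hQ, hval]
      simp only [h01, h12.symm, h13.symm, and_self, if_true, false_and, if_false, add_zero,
        zero_add, zero_sub]
      rw [inv_mul_cancel_left₀ h2]
      exact neg_ne_zero.2 hc

end Cfsg.Agent.H886
end

-- part: H886/Cases
section
/-!
Non-maximality of stabilisers of orthogonal decompositions: the cases without a common frame.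
-/

set_option autoImplicit false
set_option linter.unusedSectionVars false
set_option linter.unusedSimpArgs false

namespace Cfsg.Agent.H886

open Matrix Cfsg.Geo QuadraticMap
open scoped MatrixGroups

variable {ι : Type} [Fintype ι] [DecidableEq ι] {F : Type*} [Field F]

theorem exists_five {t : ℕ} (ht : 5 ≤ t) :
    ∃ i0 i1 i2 i3 i4 : Fin t, i0 ≠ i1 ∧ i0 ≠ i2 ∧ i0 ≠ i3 ∧ i0 ≠ i4 ∧ i1 ≠ i2 ∧ i1 ≠ i3 ∧
        i1 ≠ i4 ∧ i2 ≠ i3 ∧ i2 ≠ i4 ∧ i3 ≠ i4 := by
  refine ⟨⟨0, by omega⟩, ⟨1, by omega⟩, ⟨2, by omega⟩, ⟨3, by omega⟩, ⟨4, by omega⟩, ?_⟩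
  simp [Fin.ext_iff]

theorem exists_four {t : ℕ} (ht : 4 ≤ t) :
    ∃ i0 i1 i2 i3 : Fin t, i0 ≠ i1 ∧ i0 ≠ i2 ∧ i0 ≠ i3 ∧ i1 ≠ i2 ∧ i1 ≠ i3 ∧ i2 ≠ i3 := by
  refine ⟨⟨0, by omega⟩, ⟨1, by omega⟩, ⟨2, by omega⟩, ⟨3, by omega⟩, ?_⟩
  simp [Fin.ext_iff]

/-- A set closed under sums, described as the additive closure of a set preserved by an additive map. -/
theorem map_mem_closure (T : Set (ι → F)) (g : GL ι F)
    (h : ∀ v ∈ T, (g : Matrix ι ι F) *ᵥ v ∈ AddSubgroup.closure T) :
    ∀ v ∈ (AddSubgroup.closure T : Set (ι → F)),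
      (g : Matrix ι ι F) *ᵥ v ∈ (AddSubgroup.closure T : Set (ι → F)) := by
  intro v hv
  refine AddSubgroup.closure_induction (p := fun x _ => (g : Matrix ι ι F) *ᵥ x ∈
    (AddSubgroup.closure T : Set (ι → F))) ?_ ?_ ?_ ?_ hv
  · exact h
  · rw [Matrix.mulVec_zero]
    exact (AddSubgroup.closure T).zero_mem
  · intro x y _ _ hx hy
    rw [Matrix.mulVec_add]
    exact (AddSubgroup.closure T).add_mem hx hy
  · intro x _ hx
    rw [Matrix.mulVec_neg]
    exact (AddSubgroup.closure T).neg_mem hx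

/-- Type `O_2^+(3)`. -/
theorem split_case [Finite F] (Q : (ι → F) → F) (hQ : IsNondegenerateQuadraticForm Q)
    (h3 : (3 : F) = 0) {t k : ℕ}
    (D : Fin t → Submodule F (ι → F)) (hD : IsOrthogonalMDecomposition Q k D) (ht : 5 ≤ t)
    (a b : Fin t → (ι → F)) (ha : ∀ i, a i ∈ D i) (hb : ∀ i, b i ∈ D i)
    (hQa : ∀ i, Q (a i) = 1) (hQb : ∀ i, Q (b i) = -1) (hab : ∀ i, polar Q (a i) (b i) = 0)
    (hchar : ∀ i, ∀ x ∈ D i, Q x = 1 → x = a i ∨ x = - a i) :
    ∃ K : Subgroup (GL ι F), decompositionStabilizer D ⊓ omegaGL Q < K ∧ K < omegaGL Q := by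
  have h2 : (2 : F) = -1 := by linear_combination h3
  have haa : ∀ i j, polar Q (a i) (a j) = if i = j then 2 else 0 := by
    intro i j
    by_cases hij : i = j
    · subst hij
      simp [pl_self Q hQ, hQa]
    · simp [hij, hD.decomp.orthogonal i j hij _ (ha i) _ (ha j)]
  have hbb : ∀ i j, polar Q (b i) (b j) = if i = j then -2 else 0 := by
    intro i j
    by_cases hij : i = j
    · subst hij
      simp [pl_self Q hQ, hQb]
    · simp [hij, hD.decomp.orthogonal i j hij _ (hb i) _ (hb j)]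
  have hab' : ∀ i j, polar Q (a i) (b j) = 0 := by
    intro i j
    by_cases hij : i = j
    · subst hij
      exact hab i
    · exact hD.decomp.orthogonal i j hij _ (ha i) _ (hb j)
  have hba' : ∀ i j, polar Q (b i) (a j) = 0 := by
    intro i j
    rw [polar_comm]; exact hab' j i
  set T : Submodule F (ι → F) := Submodule.span F (Set.range a) with hT
  have haT : ∀ i, a i ∈ T := fun i => Submodule.subset_span ⟨i, rfl⟩
  obtain ⟨i0, i1, i2, i3, i4, h01, h02, h03, h04, h12, h13, h14, h23, h24, h34⟩ :=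
    exists_five ht
  have hQd : ∀ i j, i ≠ j → Q (a i - a j) = 2 := by
    intro i j hij
    rw [q_sub Q hQ, hQa, hQa, haa, if_neg hij]; ring
  have h2ne : (2 : F) ≠ 0 := by rw [h2]; exact neg_ne_zero.2 one_ne_zero
  obtain ⟨g1, hg1, hg1a⟩ := exists_refl_comm Q hQ (a i0 - a i1) (a i1 - a i2)
    (by rw [hQd _ _ h01]; exact h2ne) (by rw [hQd _ _ h12]; exact h2ne)
  have e1 : rf Q (a i1 - a i2) (a i0 - a i1) = a i0 - a i2 := by
    rw [rf_def, hQd _ _ h12]
    simp only [pl_sub_left Q hQ, pl_sub_right Q hQ, haa]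
    simp [h01, h02, h12, h01.symm, h02.symm, h12.symm, h2ne]
  rw [e1] at hg1a
  have hQx : Q (a i0 + a i1 + b i2) = 1 := by
    rw [q_add Q hQ, q_add Q hQ]
    simp only [pl_add_left Q hQ, haa, hab', hQa, hQb]
    simp [h01]
  obtain ⟨g2, hg2, hg2a⟩ := exists_refl_comm Q hQ (a i0 + a i1 + b i2) (a i0 - a i4)
    (by rw [hQx]; exact one_ne_zero) (by rw [hQd _ _ h04]; exact h2ne)
  have e2 : rf Q (a i0 - a i4) (a i0 + a i1 + b i2) = a i4 + a i1 + b i2 := by
    rw [rf_def, hQd _ _ h04]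
    simp only [pl_sub_left Q hQ, pl_add_right Q hQ, haa, hab']
    simp [h01, h04.symm, h14.symm, h2ne]
    abel
  rw [e2] at hg2a
  have e3 : rf Q (a i4 + a i1 + b i2) (a i0) = a i0 := by
    rw [rf_def]
    simp only [pl_add_left Q hQ, haa, hba']
    simp [h01.symm, h04.symm]
  have e4 : (g2 : Matrix ι ι F) *ᵥ (a i0) = a i0 - (2 : F) • (a i0 + a i1 + b i2) := by
    rw [hg2a, e3, rf_def, hQx]
    simp only [pl_add_left Q hQ, haa, hba']
    simp [h01.symm]
  refine between_of_stabilizing Q D hD (T : Set (ι → F)) ?_ g1 hg1 ?_ (i := i0) (j := i2)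
    (j' := i0)
    (a i0 + b i0) (a i2) (b i0) h02.symm ((D i0).add_mem (ha _) (hb _)) (ha _)
    (hb _) ?_ ?_ g2 hg2 (a i0) (haT _) ?_
  · intro g hg hgΩ w hw
    obtain ⟨σ, hσ⟩ := mem_decompositionStabilizer_apply hg
    refine Submodule.span_induction (p := fun x _ => (g : Matrix ι ι F) *ᵥ x ∈ T) ?_ ?_ ?_ ?_ hw
    · rintro _ ⟨i, rfl⟩
      rcases hchar (σ i) _ (hσ i _ (ha i)) (by rw [omega_isometry Q hQ g hgΩ, hQa]) with h | h
      · rw [h]; exact haT _
      · rw [h]; exact T.neg_mem (haT _)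
    · rw [Matrix.mulVec_zero]; exact T.zero_mem
    · intro x y _ _ hx hy
      rw [Matrix.mulVec_add]; exact T.add_mem hx hy
    · intro c x _ hx
      rw [Matrix.mulVec_smul]; exact T.smul_mem c hx
  · intro w hw
    have key : ∀ i j, ∀ x ∈ T, rf Q (a i - a j) x ∈ T := by
      intro i j x hx
      rw [rf_def]
      exact T.sub_mem hx (T.smul_mem _ (T.sub_mem (haT _) (haT _)))
    rw [hg1a]
    exact key _ _ _ (key _ _ _ hw)
  · rw [hg1a]
    simp only [rf_def, hQd _ _ h01, hQd _ _ h02, pl_add_left Q hQ, pl_sub_left Q hQ,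
      pl_add_right Q hQ, pl_sub_right Q hQ, pl_smul_left Q hQ, pl_smul_right Q hQ, haa, hab', hba',
      hbb]
    simp [h01, h02, h12, h01.symm, h02.symm, h12.symm, h2ne]
  · rw [hg1a]
    simp only [rf_def, hQd _ _ h01, hQd _ _ h02, pl_add_left Q hQ, pl_sub_left Q hQ,
      pl_add_right Q hQ, pl_sub_right Q hQ, pl_smul_left Q hQ, pl_smul_right Q hQ, haa, hab', hba',
      hbb]
    simp [h2ne]
  · rw [e4]
    intro hmem
    have horth : ∀ x ∈ T, polar Q x (b i2) = 0 := by
      intro x hx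
      refine Submodule.span_induction (p := fun x _ => polar Q x (b i2) = 0) ?_ ?_ ?_ ?_ hx
      · rintro _ ⟨i, rfl⟩
        exact hab' _ _
      · exact pl_zero_left Q hQ _
      · intro x y _ _ hx hy
        rw [pl_add_left Q hQ, hx, hy, add_zero]
      · intro c x _ hx
        rw [pl_smul_left Q hQ, hx, mul_zero]
    have := horth _ hmem
    simp only [pl_add_left Q hQ, pl_sub_left Q hQ, pl_smul_left Q hQ, hab', hbb] at this
    simp at this
    exact h2ne this

/-- Type `O_2^+(2)`. -/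
theorem two_case [Finite F] (Q : (ι → F) → F) (hQ : IsNondegenerateQuadraticForm Q)
    (h2 : (2 : F) = 0) {t k : ℕ}
    (D : Fin t → Submodule F (ι → F)) (hD : IsOrthogonalMDecomposition Q k D) (ht : 5 ≤ t)
    (e f : Fin t → (ι → F)) (he : ∀ i, e i ∈ D i) (hf : ∀ i, f i ∈ D i)
    (hQe : ∀ i, Q (e i) = 0) (hQf : ∀ i, Q (f i) = 0) (hef : ∀ i, polar Q (e i) (f i) = 1)
    (hchar : ∀ i, ∀ x ∈ D i, Q x = 1 → x = e i + f i) :
    ∃ K : Subgroup (GL ι F), decompositionStabilizer D ⊓ omegaGL Q < K ∧ K < omegaGL Q := by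
  have hn1 : (-1 : F) = 1 := by linear_combination - h2
  have hee : ∀ i j, polar Q (e i) (e j) = 0 := by
    intro i j
    by_cases hij : i = j
    · subst hij
      simp [pl_self Q hQ, hQe]
    · simp [hD.decomp.orthogonal i j hij _ (he i) _ (he j)]
  have hff : ∀ i j, polar Q (f i) (f j) = 0 := by
    intro i j
    by_cases hij : i = j
    · subst hij
      simp [pl_self Q hQ, hQf]
    · simp [hD.decomp.orthogonal i j hij _ (hf i) _ (hf j)]
  have hef' : ∀ i j, polar Q (e i) (f j) = if i = j then 1 else 0 := by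
    intro i j
    by_cases hij : i = j
    · subst hij
      simp [hef i]
    · simp [hij, hD.decomp.orthogonal i j hij _ (he i) _ (hf j)]
  have hfe' : ∀ i j, polar Q (f i) (e j) = if i = j then 1 else 0 := by
    intro i j
    rw [polar_comm, hef']
    simp [eq_comm]
  set w : ι → F := ∑ i, (e i + f i) with hw
  have hsumr : ∀ (x : ι → F) (s : Fin t → (ι → F)), polar Q x (∑ i, s i) = ∑ i, polar Q x (s i) := by
    intro x s
    exact map_sum (polarBilin (Cfsg.Agent.H889.bundleQ Q hQ) x) s Finset.univ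
  have hew : ∀ i, polar Q (e i) w = 1 := by
    intro i
    rw [hw, hsumr]
    simp only [pl_add_right Q hQ, hee, hef', zero_add]
    simp
  have hfw : ∀ i, polar Q (f i) w = 1 := by
    intro i
    rw [hw, hsumr]
    simp only [pl_add_right Q hQ, hff, hfe', add_zero]
    simp
  obtain ⟨i0, i1, i2, i3, i4, h01, h02, h03, h04, h12, h13, h14, h23, h24, h34⟩ :=
    exists_five ht
  have hQw : ∀ i, Q (e i + f i) = 1 := by
    intro i
    rw [q_add Q hQ, hQe, hQf, hef]; ring
  -- u = e0 + f0, v = e0 + e1 + (e2 + f2)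
  have hQv1 : Q (e i0 + e i1 + (e i2 + f i2)) = 1 := by
    rw [q_add Q hQ, q_add Q hQ, hQw, hQe, hQe]
    simp only [pl_add_left Q hQ, pl_add_right Q hQ, hee, hef']
    simp [h02, h12]
  have hQv2 : Q (e i0 + (e i1 + f i1)) = 1 := by
    rw [q_add Q hQ, hQw, hQe]
    simp only [pl_add_left Q hQ, pl_add_right Q hQ, hee, hef']
    simp [h01]
  obtain ⟨g1, hg1, hg1a⟩ := exists_refl_comm Q hQ (e i0 + f i0) (e i0 + e i1 + (e i2 + f i2))
    (by rw [hQw]; exact one_ne_zero) (by rw [hQv1]; exact one_ne_zero)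
  obtain ⟨g2, hg2, hg2a⟩ := exists_refl_comm Q hQ (e i0 + f i0) (e i0 + (e i1 + f i1))
    (by rw [hQw]; exact one_ne_zero) (by rw [hQv2]; exact one_ne_zero)
  have e1 : rf Q (e i0 + e i1 + (e i2 + f i2)) (e i0 + f i0) =
      (e i0 + f i0) - (e i0 + e i1 + (e i2 + f i2)) := by
    rw [rf_def, hQv1]
    simp only [pl_add_left Q hQ, pl_add_right Q hQ, hee, hef', hfe', hff]
    simp [h01.symm, h02.symm]
  have e2 : rf Q (e i0 + (e i1 + f i1)) (e i0 + f i0) =
      (e i0 + f i0) - (e i0 + (e i1 + f i1)) := by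
    rw [rf_def, hQv2]
    simp only [pl_add_left Q hQ, pl_add_right Q hQ, hee, hef', hfe', hff]
    simp [h01.symm]
  have hQu1 : Q ((e i0 + f i0) - (e i0 + e i1 + (e i2 + f i2))) = 1 := by
    rw [← e1, rf_isometry Q hQ _ (by rw [hQv1]; exact one_ne_zero), hQw]
  have hQu2 : Q ((e i0 + f i0) - (e i0 + (e i1 + f i1))) = 1 := by
    rw [← e2, rf_isometry Q hQ _ (by rw [hQv2]; exact one_ne_zero), hQw]
  rw [e1] at hg1a
  rw [e2] at hg2a
  refine between_of_stabilizing Q D hD {w} ?_ g1 hg1 ?_ (i := i2) (j := i0) (j' := i1)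
    (e i2) (f i0) (f i1) h01 (he _) (hf _) (hf _) ?_ ?_ g2 hg2 w rfl ?_
  · intro g hg hgΩ x hx
    obtain ⟨σ, hσ⟩ := mem_decompositionStabilizer_apply hg
    rw [Set.mem_singleton_iff] at hx ⊢
    subst hx
    have hstep : ∀ i, (g : Matrix ι ι F) *ᵥ (e i + f i) = e (σ i) + f (σ i) := by
      intro i
      exact hchar (σ i) _ (hσ i _ ((D i).add_mem (he i) (hf i)))
        (by rw [omega_isometry Q hQ g hgΩ, hQw])
    have hsum : (g : Matrix ι ι F) *ᵥ w = ∑ i, (g : Matrix ι ι F) *ᵥ (e i + f i) := by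
      rw [hw]
      exact map_sum (Matrix.mulVecLin (g : Matrix ι ι F)) _ _
    rw [hsum, hw, Finset.sum_congr rfl (fun i _ => hstep i)]
    exact Equiv.sum_comp σ (fun i => e i + f i)
  · intro x hx
    rw [Set.mem_singleton_iff] at hx ⊢
    subst hx
    rw [hg1a]
    have p1 : polar Q ((e i0 + f i0) - (e i0 + e i1 + (e i2 + f i2))) w = 0 := by
      simp only [pl_add_left Q hQ, pl_sub_left Q hQ, hew, hfw]
      linear_combination - h2
    have p2 : polar Q (e i0 + f i0) w = 0 := by
      simp only [pl_add_left Q hQ, hew, hfw]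
      linear_combination h2
    rw [rf_def Q ((e i0 + f i0) - (e i0 + e i1 + (e i2 + f i2))), p1, mul_zero, zero_smul,
      sub_zero, rf_def, p2, mul_zero, zero_smul, sub_zero]
  · rw [hg1a]
    simp only [rf_def, hQw, hQu1, pl_add_left Q hQ, pl_sub_left Q hQ, pl_add_right Q hQ,
      pl_sub_right Q hQ, pl_smul_left Q hQ, pl_smul_right Q hQ, hee, hef', hfe', hff]
    simp only [h01, h02, h12, h01.symm, h02.symm, h12.symm, if_true, if_false]
    intro h
    ring_nf at h
    norm_num at h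
  · rw [hg1a]
    simp only [rf_def, hQw, hQu1, pl_add_left Q hQ, pl_sub_left Q hQ, pl_add_right Q hQ,
      pl_sub_right Q hQ, pl_smul_left Q hQ, pl_smul_right Q hQ, hee, hef', hfe', hff]
    simp only [h01, h02, h12, h01.symm, h02.symm, h12.symm, if_true, if_false]
    intro h
    ring_nf at h
    norm_num at h
  · intro hmem
    rw [Set.mem_singleton_iff] at hmem
    have := congrArg (fun x => polar Q x (f i1)) hmem
    rw [hg2a] at this
    simp only [rf_def, hQw, hQu2, pl_add_left Q hQ, pl_sub_left Q hQ, pl_add_right Q hQ,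
      pl_sub_right Q hQ, pl_smul_left Q hQ, pl_smul_right Q hQ, hee, hef', hfe', hff, hew, hfw] at this
    simp only [h01, h02, h12, h01.symm, h02.symm, h12.symm, if_true, if_false] at this
    ring_nf at this
    norm_num at this

end Cfsg.Agent.H886
end

-- part: H886/CasesB
section
/-!
Non-maximality of stabilisers of orthogonal decompositions: types `O_2^+(4)` and `O_4^+(2)`.
-/

set_option autoImplicit false
set_option linter.unusedSectionVars false
set_option linter.unusedSimpArgs false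

namespace Cfsg.Agent.H886

open Matrix Cfsg.Geo QuadraticMap
open scoped MatrixGroups

variable {ι : Type} [Fintype ι] [DecidableEq ι] {F : Type*} [Field F]

/-- Type `O_2^+(4)`. -/
theorem four_case [Finite F] (Q : (ι → F) → F) (hQ : IsNondegenerateQuadraticForm Q)
    (h2 : (2 : F) = 0) (h4 : ∀ x : F, x ^ 4 = x) (ω : F) (hω : ω ^ 2 = ω + 1) {t k : ℕ}
    (D : Fin t → Submodule F (ι → F)) (hD : IsOrthogonalMDecomposition Q k D) (ht : 5 ≤ t)
    (e f : Fin t → (ι → F)) (he : ∀ i, e i ∈ D i) (hf : ∀ i, f i ∈ D i)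
    (hQe : ∀ i, Q (e i) = 0) (hQf : ∀ i, Q (f i) = 0) (hef : ∀ i, polar Q (e i) (f i) = 1)
    (hspan : ∀ i, ∀ x ∈ D i, ∃ p q : F, x = p • e i + q • f i) :
    ∃ K : Subgroup (GL ι F), decompositionStabilizer D ⊓ omegaGL Q < K ∧ K < omegaGL Q := by
  have hn1 : (-1 : F) = 1 := by linear_combination - h2
  have hee : ∀ i j, polar Q (e i) (e j) = 0 := by
    intro i j
    by_cases hij : i = j
    · subst hij
      simp [pl_self Q hQ, hQe]
    · simp [hD.decomp.orthogonal i j hij _ (he i) _ (he j)]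
  have hff : ∀ i j, polar Q (f i) (f j) = 0 := by
    intro i j
    by_cases hij : i = j
    · subst hij
      simp [pl_self Q hQ, hQf]
    · simp [hD.decomp.orthogonal i j hij _ (hf i) _ (hf j)]
  have hef' : ∀ i j, polar Q (e i) (f j) = if i = j then 1 else 0 := by
    intro i j
    by_cases hij : i = j
    · subst hij
      simp [hef i]
    · simp [hij, hD.decomp.orthogonal i j hij _ (he i) _ (hf j)]
  have hfe' : ∀ i j, polar Q (f i) (e j) = if i = j then 1 else 0 := by
    intro i j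
    rw [polar_comm, hef']
    simp [eq_comm]
  have hQpq : ∀ i (p q : F), Q (p • e i + q • f i) = p * q := by
    intro i p q
    rw [q_add Q hQ, hQ.smul, hQ.smul, hQe, hQf, pl_smul_left Q hQ, pl_smul_right Q hQ, hef]
    ring
  set S : Set (ι → F) := {x | ∃ i, x ∈ D i ∧ Q x = 1} with hS
  set W : AddSubgroup (ι → F) := AddSubgroup.closure S with hW
  have hidem : ∀ c : F, c * c = c → c = 0 ∨ c = 1 := by
    intro c hc
    have : c * (c - 1) = 0 := by linear_combination hc
    rcases mul_eq_zero.1 this with h | h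
    · exact Or.inl h
    · exact Or.inr (by linear_combination h)
  -- the polar form is idempotent-valued on `W`
  have hSS : ∀ x ∈ S, ∀ y ∈ S, polar Q x y * polar Q x y = polar Q x y := by
    rintro x ⟨i, hx, hx1⟩ y ⟨j, hy, hy1⟩
    by_cases hij : i = j
    · subst hij
      obtain ⟨p, q, rfl⟩ := hspan i x hx
      obtain ⟨r, s, rfl⟩ := hspan i y hy
      rw [hQpq] at hx1 hy1
      have hp : p ≠ 0 := left_ne_zero_of_mul_eq_one hx1
      have hr : r ≠ 0 := left_ne_zero_of_mul_eq_one hy1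
      have hp3 : p ^ 3 = 1 := by
        have := h4 p
        have h' : p * (p ^ 3 - 1) = 0 := by linear_combination this
        rcases mul_eq_zero.1 h' with h | h
        · exact absurd h hp
        · linear_combination h
      have hr3 : r ^ 3 = 1 := by
        have := h4 r
        have h' : r * (r ^ 3 - 1) = 0 := by linear_combination this
        rcases mul_eq_zero.1 h' with h | h
        · exact absurd h hr
        · linear_combination h
      have hq : q = p ^ 2 := by
        have : p * (q - p ^ 2) = 0 := by linear_combination hx1 - hp3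
        rcases mul_eq_zero.1 this with h | h
        · exact absurd h hp
        · linear_combination h
      have hs : s = r ^ 2 := by
        have : r * (s - r ^ 2) = 0 := by linear_combination hy1 - hr3
        rcases mul_eq_zero.1 this with h | h
        · exact absurd h hr
        · linear_combination h
      subst hq hs
      have : polar Q (p • e i + p ^ 2 • f i) (r • e i + r ^ 2 • f i) = p * r ^ 2 + p ^ 2 * r := by
        simp only [pl_add_left Q hQ, pl_add_right Q hQ, pl_smul_left Q hQ, pl_smul_right Q hQ,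
          hee, hff, hef', hfe']
        simp
      rw [this]
      linear_combination (p ^ 2 * r) * hr3 + (p * r ^ 2) * hp3 + (p ^ 3 * r ^ 3) * h2
    · rw [hD.decomp.orthogonal i j hij x hx y hy]; ring
  have hSW : ∀ x ∈ S, ∀ y ∈ W, polar Q x y * polar Q x y = polar Q x y := by
    intro x hx y hy
    refine AddSubgroup.closure_induction (p := fun y _ => polar Q x y * polar Q x y = polar Q x y)
      ?_ ?_ ?_ ?_ hy
    · intro y hy; exact hSS x hx y hy
    · rw [pl_zero_right Q hQ]; ring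
    · intro y z _ _ h1 h2'
      rw [pl_add_right Q hQ]
      linear_combination h1 + h2' + (polar Q x y * polar Q x z) * h2
    · intro y _ h1
      rw [pl_neg_right Q hQ]
      linear_combination h1 + polar Q x y * h2
  have hWW : ∀ x ∈ W, ∀ y ∈ W, polar Q x y * polar Q x y = polar Q x y := by
    intro x hx y hy
    refine AddSubgroup.closure_induction (p := fun x _ => polar Q x y * polar Q x y = polar Q x y)
      ?_ ?_ ?_ ?_ hx
    · intro x hx; exact hSW x hx y hy
    · rw [pl_zero_left Q hQ]; ring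
    · intro z z' _ _ h1 h2'
      rw [pl_add_left Q hQ]
      linear_combination h1 + h2' + (polar Q z y * polar Q z' y) * h2
    · intro z _ h1
      rw [pl_neg_left Q hQ]
      linear_combination h1 + polar Q z y * h2
  have hrfW : ∀ u ∈ W, Q u = 1 → ∀ x ∈ W, rf Q u x ∈ W := by
    intro u hu hu1 x hx
    rw [rf_def, hu1, inv_one, one_mul]
    rcases hidem _ (hWW u hu x hx) with h | h
    · rw [h, zero_smul, sub_zero]; exact hx
    · rw [h, one_smul]; exact W.sub_mem hx hu
  obtain ⟨i0, i1, i2, i3, i4, h01, h02, h03, h04, h12, h13, h14, h23, h24, h34⟩ :=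
    exists_five ht
  -- `a i = e i + f i`, `b i = ω e i + ω² f i`
  have hω3 : ω * ω ^ 2 = 1 := by
    linear_combination (ω + 1) * hω + ω * h2
  have haS : ∀ i, e i + f i ∈ S := fun i => ⟨i, (D i).add_mem (he i) (hf i), by
    have := hQpq i 1 1
    simpa using this⟩
  have hbS : ∀ i, ω • e i + ω ^ 2 • f i ∈ S := fun i =>
    ⟨i, (D i).add_mem ((D i).smul_mem _ (he i)) ((D i).smul_mem _ (hf i)), by
      rw [hQpq, hω3]⟩
  have hSleW : ∀ x ∈ S, x ∈ W := fun x hx => AddSubgroup.subset_closure hx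
  have hQa : ∀ i, Q (e i + f i) = 1 := fun i => (haS i).choose_spec.2
  have hQb : ∀ i, Q (ω • e i + ω ^ 2 • f i) = 1 := fun i => (hbS i).choose_spec.2
  set a : Fin t → (ι → F) := fun i => e i + f i with ha
  set b : Fin t → (ι → F) := fun i => ω • e i + ω ^ 2 • f i with hb
  have haD : ∀ i, a i ∈ D i := fun i => (D i).add_mem (he i) (hf i)
  have hbD : ∀ i, b i ∈ D i := fun i =>
    (D i).add_mem ((D i).smul_mem _ (he i)) ((D i).smul_mem _ (hf i))
  have haa : ∀ i j, polar Q (a i) (a j) = 0 := by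
    intro i j
    simp only [ha, pl_add_left Q hQ, pl_add_right Q hQ, hee, hff, hef', hfe']
    by_cases hij : i = j
    · simp only [hij, if_true]; linear_combination h2
    · simp [hij]
  have hbb : ∀ i j, polar Q (b i) (b j) = 0 := by
    intro i j
    by_cases hij : i = j
    · subst hij
      rw [pl_self Q hQ, h2, zero_mul]
    · exact hD.decomp.orthogonal i j hij _ (hbD i) _ (hbD j)
  have hab : ∀ i j, polar Q (a i) (b j) = if i = j then 1 else 0 := by
    intro i j
    simp only [ha, hb, pl_add_left Q hQ, pl_add_right Q hQ, pl_smul_right Q hQ, hee, hff, hef',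
      hfe']
    by_cases hij : i = j
    · simp only [hij, if_true]; linear_combination hω + ω * h2
    · simp [hij]
  have hba : ∀ i j, polar Q (b i) (a j) = if i = j then 1 else 0 := by
    intro i j
    rw [polar_comm, hab]
    simp [eq_comm]
  have hae : ∀ i j, polar Q (a i) (e j) = if i = j then 1 else 0 := by
    intro i j
    simp only [ha, pl_add_left Q hQ, hee, hfe']
    simp
  have hea : ∀ i j, polar Q (e i) (a j) = if i = j then 1 else 0 := by
    intro i j
    rw [polar_comm, hae]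
    simp [eq_comm]
  have heb : ∀ i j, polar Q (e i) (b j) = if i = j then ω ^ 2 else 0 := by
    intro i j
    simp only [hb, pl_add_right Q hQ, pl_smul_right Q hQ, hee, hef']
    simp
  have hbe : ∀ i j, polar Q (b i) (e j) = if i = j then ω ^ 2 else 0 := by
    intro i j
    rw [polar_comm, heb]
    simp [eq_comm]
  have hQv1 : Q (b i0 + a i1 + a i2) = 1 := by
    rw [q_add Q hQ, q_add Q hQ, hQa, hQa, hQb]
    simp only [pl_add_left Q hQ, haa, hba]
    simp only [h01, h02, if_false]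
    linear_combination h2
  have hQv2 : Q (b i0 + e i1) = 1 := by
    rw [q_add Q hQ, hQb, hQe, hbe]
    simp [h01]
  obtain ⟨g1, hg1, hg1a⟩ := exists_refl_comm Q hQ (a i0) (b i0 + a i1 + a i2)
    (by rw [hQa]; exact one_ne_zero) (by rw [hQv1]; exact one_ne_zero)
  obtain ⟨g2, hg2, hg2a⟩ := exists_refl_comm Q hQ (a i0) (b i0 + e i1)
    (by rw [hQa]; exact one_ne_zero) (by rw [hQv2]; exact one_ne_zero)
  have e1 : rf Q (b i0 + a i1 + a i2) (a i0) = a i0 - (b i0 + a i1 + a i2) := by
    rw [rf_def, hQv1]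
    simp only [pl_add_left Q hQ, haa, hba]
    simp
  have e2 : rf Q (b i0 + e i1) (a i0) = a i0 - (b i0 + e i1) := by
    rw [rf_def, hQv2]
    simp only [pl_add_left Q hQ, hba, hea]
    simp [h01.symm]
  have hQu1 : Q (a i0 - (b i0 + a i1 + a i2)) = 1 := by
    rw [← e1, rf_isometry Q hQ _ (by rw [hQv1]; exact one_ne_zero), hQa]
  have hQu2 : Q (a i0 - (b i0 + e i1)) = 1 := by
    rw [← e2, rf_isometry Q hQ _ (by rw [hQv2]; exact one_ne_zero), hQa]
  rw [e1] at hg1a
  rw [e2] at hg2a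
  refine between_of_stabilizing Q D hD (W : Set (ι → F)) ?_ g1 hg1 ?_ (i := i1) (j := i0)
    (j' := i2) (b i1) (a i0) (b i2) h02 (hbD _) (haD _) (hbD _) ?_ ?_ g2 hg2 (a i1)
    (hSleW _ (haS _)) ?_
  · intro g hg hgΩ
    obtain ⟨σ, hσ⟩ := mem_decompositionStabilizer_apply hg
    refine map_mem_closure S g ?_
    rintro x ⟨i, hx, hx1⟩
    exact hSleW _ ⟨σ i, hσ i x hx, by rw [omega_isometry Q hQ g hgΩ, hx1]⟩
  · intro x hx
    rw [hg1a]
    refine hrfW _ (hSleW _ (haS _)) (hQa _) _ (hrfW _ ?_ hQu1 _ hx)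
    exact W.sub_mem (hSleW _ (haS _)) (W.add_mem (W.add_mem (hSleW _ (hbS _)) (hSleW _ (haS _)))
      (hSleW _ (haS _)))
  · rw [hg1a]
    simp only [rf_def, hQa, hQu1, pl_add_left Q hQ, pl_sub_left Q hQ, pl_add_right Q hQ,
      pl_sub_right Q hQ, pl_smul_left Q hQ, pl_smul_right Q hQ, haa, hab, hba, hbb]
    simp only [h01, h02, h12, h01.symm, h02.symm, h12.symm, if_true, if_false]
    intro h
    ring_nf at h
    norm_num at h
  · rw [hg1a]
    simp only [rf_def, hQa, hQu1, pl_add_left Q hQ, pl_sub_left Q hQ, pl_add_right Q hQ,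
      pl_sub_right Q hQ, pl_smul_left Q hQ, pl_smul_right Q hQ, haa, hab, hba, hbb]
    simp only [h01, h02, h12, h01.symm, h02.symm, h12.symm, if_true, if_false]
    intro h
    ring_nf at h
    norm_num at h
  · intro hmem
    have hval := hWW _ hmem _ (hSleW _ (hbS i1))
    rw [hg2a] at hval
    have hbb' : polar Q ((fun i => ω • e i + ω ^ 2 • f i) i1) (b i1) = 0 := hbb i1 i1
    change polar Q (rf Q (a i0) (rf Q (a i0 - (b i0 + e i1)) (a i1))) (b i1) *
      polar Q (rf Q (a i0) (rf Q (a i0 - (b i0 + e i1)) (a i1))) (b i1) =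
      polar Q (rf Q (a i0) (rf Q (a i0 - (b i0 + e i1)) (a i1))) (b i1) at hval
    have hcalc : polar Q (rf Q (a i0) (rf Q (a i0 - (b i0 + e i1)) (a i1))) (b i1) =
        1 - ω ^ 2 := by
      simp only [rf_def, hQa, hQu2, pl_add_left Q hQ, pl_sub_left Q hQ, pl_add_right Q hQ,
        pl_sub_right Q hQ, pl_smul_left Q hQ, pl_smul_right Q hQ, haa, hab, hba, hbb, hae, hea,
        heb, hbe, hee]
      simp only [h01, h01.symm, if_true, if_false]
      ring
    rw [hcalc] at hval
    -- `(1 - ω²)² = 1 - ω²` forces `ω² = 0` or `ω² = 1`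
    have h5 : ω ^ 2 * (ω ^ 2 - 1) = 0 := by linear_combination hval
    have hω0 : ω ≠ 0 := by
      intro h
      rw [h] at hω
      norm_num at hω
    rcases mul_eq_zero.1 h5 with h | h
    · exact hω0 (pow_eq_zero_iff (two_ne_zero) |>.1 h)
    · exact hω0 (by linear_combination h - hω)

/-- Type `O_4^+(2)`. -/
theorem four_two_case [Finite F] (Q : (ι → F) → F) (hQ : IsNondegenerateQuadraticForm Q)
    (h2 : ∀ x : F, x = 0 ∨ x = 1) (hn : 5 ≤ Fintype.card ι) {t k : ℕ}
    (D : Fin t → Submodule F (ι → F)) (hD : IsOrthogonalMDecomposition Q k D) (ht : 4 ≤ t)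
    (a b a' b' : Fin t → (ι → F)) (ha : ∀ i, a i ∈ D i) (hb : ∀ i, b i ∈ D i)
    (ha' : ∀ i, a' i ∈ D i) (hb' : ∀ i, b' i ∈ D i)
    (hQa : ∀ i, Q (a i) = 1) (hQb : ∀ i, Q (b i) = 1) (hQa' : ∀ i, Q (a' i) = 1)
    (hQb' : ∀ i, Q (b' i) = 1)
    (hab : ∀ i, polar Q (a i) (b i) = 1) (hab' : ∀ i, polar Q (a' i) (b' i) = 1)
    (haa' : ∀ i, polar Q (a i) (a' i) = 0) (hapb' : ∀ i, polar Q (a i) (b' i) = 0)
    (hba' : ∀ i, polar Q (b i) (a' i) = 0) (hbb' : ∀ i, polar Q (b i) (b' i) = 0)
    (hspan : ∀ i, ∀ x ∈ D i, ∃ p q r s : F, x = p • a i + q • b i + r • a' i + s • b' i) :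
    ∃ K : Subgroup (GL ι F), decompositionStabilizer D ⊓ omegaGL Q < K ∧ K < omegaGL Q := by
  have h20 : (2 : F) = 0 := by
    rcases h2 (1 + 1) with h | h
    · linear_combination h
    · exact absurd (by linear_combination h : (1 : F) = 0) one_ne_zero
  have hn1 : (-1 : F) = 1 := by linear_combination - h20
  have same : ∀ (x : Fin t → (ι → F)), (∀ i, x i ∈ D i) → ∀ i j, polar Q (x i) (x j) = 0 := by
    intro x hx i j
    by_cases hij : i = j
    · subst hij; rw [pl_self Q hQ, h20, zero_mul]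
    · exact hD.decomp.orthogonal i j hij _ (hx i) _ (hx j)
  have mix : ∀ (x y : Fin t → (ι → F)) (c : F), (∀ i, x i ∈ D i) → (∀ i, y i ∈ D i) →
      (∀ i, polar Q (x i) (y i) = c) → ∀ i j, polar Q (x i) (y j) = if i = j then c else 0 := by
    intro x y c hx hy hxy i j
    by_cases hij : i = j
    · subst hij; simp [hxy]
    · simp [hij, hD.decomp.orthogonal i j hij _ (hx i) _ (hy j)]
  have Paa := same a ha
  have Pbb := same b hb
  have Pa'a' := same a' ha'
  have Pb'b' := same b' hb'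
  have Pab := mix a b 1 ha hb hab
  have Pba := mix b a 1 hb ha (fun i => by rw [polar_comm]; exact hab i)
  have Pa'b' := mix a' b' 1 ha' hb' hab'
  have Pb'a' := mix b' a' 1 hb' ha' (fun i => by rw [polar_comm]; exact hab' i)
  have Paa' : ∀ i j, polar Q (a i) (a' j) = 0 := fun i j => by
    rw [mix a a' 0 ha ha' haa']; simp
  have Pa'a : ∀ i j, polar Q (a' i) (a j) = 0 := fun i j => by rw [polar_comm]; exact Paa' j i
  have Pab' : ∀ i j, polar Q (a i) (b' j) = 0 := fun i j => by
    rw [mix a b' 0 ha hb' hapb']; simp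
  have Pb'a : ∀ i j, polar Q (b' i) (a j) = 0 := fun i j => by rw [polar_comm]; exact Pab' j i
  have Pba' : ∀ i j, polar Q (b i) (a' j) = 0 := fun i j => by
    rw [mix b a' 0 hb ha' hba']; simp
  have Pa'b : ∀ i j, polar Q (a' i) (b j) = 0 := fun i j => by rw [polar_comm]; exact Pba' j i
  have Pbb' : ∀ i j, polar Q (b i) (b' j) = 0 := fun i j => by
    rw [mix b b' 0 hb hb' hbb']; simp
  have Pb'b : ∀ i j, polar Q (b' i) (b j) = 0 := fun i j => by rw [polar_comm]; exact Pbb' j i
  obtain ⟨i0, i1, i2, i3, h01, h02, h03, h12, h13, h23⟩ := exists_four ht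
  -- description of the nonsingular vectors in a member
  set S : Set (ι → F) := {x | ∃ i, x ∈ D i ∧ Q x = 1} with hS
  have hchar : ∀ i, ∀ x ∈ D i, Q x = 1 → x = a i ∨ x = b i ∨ x = a i + b i ∨ x = a' i ∨
      x = b' i ∨ x = a' i + b' i := by
    intro i x hx hx1
    obtain ⟨p, q, r, s, rfl⟩ := hspan i x hx
    rw [q_add Q hQ, q_add Q hQ, q_add Q hQ, hQ.smul, hQ.smul, hQ.smul, hQ.smul, hQa, hQb, hQa',
      hQb'] at hx1
    simp only [pl_add_left Q hQ, pl_smul_left Q hQ, pl_smul_right Q hQ, Paa', Pba', Pa'b', Pab',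
      Pab, Pbb'] at hx1
    rcases h2 p with rfl | rfl <;> rcases h2 q with rfl | rfl <;> rcases h2 r with rfl | rfl <;>
      rcases h2 s with rfl | rfl <;> simp at hx1 ⊢
    all_goals first
      | (exfalso; apply one_ne_zero (α := F); linear_combination hx1 - h20; done)
      | (exfalso; apply one_ne_zero (α := F); linear_combination hx1 - 2 * h20)
  have hSmem : ∀ i, a i ∈ S ∧ b i ∈ S ∧ a i + b i ∈ S ∧ a' i ∈ S ∧ b' i ∈ S ∧ a' i + b' i ∈ S := by
    intro i
    refine ⟨⟨i, ha i, hQa i⟩, ⟨i, hb i, hQb i⟩, ⟨i, (D i).add_mem (ha i) (hb i), ?_⟩,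
      ⟨i, ha' i, hQa' i⟩, ⟨i, hb' i, hQb' i⟩, ⟨i, (D i).add_mem (ha' i) (hb' i), ?_⟩⟩
    · rw [q_add Q hQ, hQa, hQb, hab]; linear_combination h20
    · rw [q_add Q hQ, hQa', hQb', hab']; linear_combination h20
  -- the swap of two planes
  obtain ⟨g1, hg1, hg1a⟩ := Cfsg.Agent.H889.exists_siegel_omegaGL Q hQ hn (a i0 + a i1)
    (b i0 + b i1)
    (by rw [q_add Q hQ, hQa, hQa, Paa]; linear_combination h20)
    (by rw [q_add Q hQ, hQb, hQb, Pbb]; linear_combination h20)
    (by
      simp only [pl_add_left Q hQ, pl_add_right Q hQ, Pab, h01, h01.symm, if_true, if_false]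
      linear_combination h20)
  have g1a' : ∀ i, (g1 : Matrix ι ι F) *ᵥ (a' i) = a' i := by
    intro i
    rw [hg1a]
    simp only [pl_add_left Q hQ, Paa', Pba']
    simp
  have g1b' : ∀ i, (g1 : Matrix ι ι F) *ᵥ (b' i) = b' i := by
    intro i
    rw [hg1a]
    simp only [pl_add_left Q hQ, Pab', Pbb']
    simp
  have hcharneg : ∀ x : ι → F, -x = x := by
    intro x
    rw [← neg_one_smul F x, hn1, one_smul]
  have hchartwo : ∀ x : ι → F, x + x = 0 := by
    intro x
    rw [← two_smul F x, h20, zero_smul]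
  have g1a : ∀ i, (g1 : Matrix ι ι F) *ᵥ (a i) = if i = i0 then a i1 else if i = i1 then a i0
      else a i := by
    intro i
    rw [hg1a]
    simp only [pl_add_left Q hQ, Paa, Pba]
    by_cases h0 : i = i0
    · subst h0
      simp only [h01.symm, if_true, if_false, add_zero, zero_smul, zero_sub, one_smul]
      rw [hcharneg, ← add_assoc, hchartwo, zero_add]
    · by_cases h1 : i = i1
      · subst h1
        simp only [h0, Ne.symm h0, if_true, if_false, add_zero, zero_add, zero_smul, zero_sub,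
          one_smul, h01]
        rw [hcharneg, add_comm (a i0), ← add_assoc, hchartwo, zero_add]
      · simp only [h0, h1, Ne.symm h0, Ne.symm h1, if_false, add_zero, zero_smul, sub_zero]
  have g1b : ∀ i, (g1 : Matrix ι ι F) *ᵥ (b i) = if i = i0 then b i1 else if i = i1 then b i0
      else b i := by
    intro i
    rw [hg1a]
    simp only [pl_add_left Q hQ, Pab, Pbb]
    by_cases h0 : i = i0
    · subst h0
      simp only [h01.symm, if_true, if_false, add_zero, zero_smul, sub_zero, one_smul]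
      rw [← add_assoc, hchartwo, zero_add]
    · by_cases h1 : i = i1
      · subst h1
        simp only [h0, Ne.symm h0, if_true, if_false, add_zero, zero_add, zero_smul, sub_zero,
          one_smul, h01]
        rw [add_comm (b i0), ← add_assoc, hchartwo, zero_add]
      · simp only [h0, h1, Ne.symm h0, Ne.symm h1, if_false, add_zero, zero_smul, sub_zero]
  -- an element of `Ω` not preserving `S`
  have hQu : Q (a i0 + a i1 + a i2) = 1 := by
    rw [q_add Q hQ, q_add Q hQ, hQa, hQa, hQa]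
    simp only [pl_add_left Q hQ, Paa]
    linear_combination h20
  obtain ⟨g2, hg2, hg2a⟩ := exists_refl_comm Q hQ (a i0 + a i1 + a i2) (b i0)
    (by rw [hQu]; exact one_ne_zero) (by rw [hQb]; exact one_ne_zero)
  have e2 : rf Q (b i0) (a i0 + a i1 + a i2) = (a i0 + a i1 + a i2) - b i0 := by
    rw [rf_def, hQb]
    simp only [pl_add_right Q hQ, Pba]
    simp [h01, h02]
  have hQu' : Q ((a i0 + a i1 + a i2) - b i0) = 1 := by
    rw [← e2, rf_isometry Q hQ _ (by rw [hQb]; exact one_ne_zero), hQu]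
  rw [e2] at hg2a
  refine between_of_stabilizing Q D hD S ?_ g1 hg1 ?_ (i := i0) (j := i1) (j' := i0)
    (a i0 + a' i0) (b i1) (b' i0) h01.symm ((D i0).add_mem (ha _) (ha' _)) (hb _) (hb' _) ?_ ?_
    g2 hg2 (b i1) (hSmem i1).2.1 ?_
  · rintro g hg hgΩ x ⟨i, hx, hx1⟩
    obtain ⟨σ, hσ⟩ := mem_decompositionStabilizer_apply hg
    exact ⟨σ i, hσ i x hx, by rw [omega_isometry Q hQ g hgΩ, hx1]⟩
  · rintro x ⟨i, hx, hx1⟩
    rcases hchar i x hx hx1 with rfl | rfl | rfl | rfl | rfl | rfl
    · rw [g1a]; split_ifs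
      · exact (hSmem _).1
      · exact (hSmem _).1
      · exact (hSmem _).1
    · rw [g1b]; split_ifs
      · exact (hSmem _).2.1
      · exact (hSmem _).2.1
      · exact (hSmem _).2.1
    · rw [Matrix.mulVec_add, g1a, g1b]; split_ifs
      · exact (hSmem _).2.2.1
      · exact (hSmem _).2.2.1
      · exact (hSmem _).2.2.1
    · rw [g1a']; exact (hSmem _).2.2.2.1
    · rw [g1b']; exact (hSmem _).2.2.2.2.1
    · rw [Matrix.mulVec_add, g1a', g1b']; exact (hSmem _).2.2.2.2.2
  · rw [Matrix.mulVec_add, g1a, g1a', if_pos rfl, pl_add_left Q hQ, Pab, Pa'b, if_pos rfl,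
      add_zero]
    exact one_ne_zero
  · rw [Matrix.mulVec_add, g1a, g1a', if_pos rfl, pl_add_left Q hQ, Pab', Pa'b', if_pos rfl,
      zero_add]
    exact one_ne_zero
  · rintro ⟨l, hl, -⟩
    refine not_mem_of_polar Q hD _ (b i2) (b i0) h02.symm (hb _) (hb _) ?_ ?_ l hl
    · rw [hg2a]
      simp only [rf_def, hQu, hQu', pl_add_left Q hQ, pl_sub_left Q hQ, pl_add_right Q hQ,
        pl_sub_right Q hQ, pl_smul_left Q hQ, pl_smul_right Q hQ, Paa, Pab, Pba, Pbb]
      simp only [h01, h02, h12, h01.symm, h02.symm, h12.symm, if_true, if_false]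
      intro h
      ring_nf at h
      first
        | exact one_ne_zero (α := F) (by linear_combination h - h20)
        | exact one_ne_zero (α := F) (by linear_combination h)
        | exact one_ne_zero (α := F) (by linear_combination -h)
        | exact one_ne_zero (α := F) (by linear_combination -h - h20)
        | exact one_ne_zero (α := F) (by linear_combination -h + h20)
        | exact one_ne_zero (α := F) (by linear_combination h + h20)
    · rw [hg2a]
      simp only [rf_def, hQu, hQu', pl_add_left Q hQ, pl_sub_left Q hQ, pl_add_right Q hQ,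
        pl_sub_right Q hQ, pl_smul_left Q hQ, pl_smul_right Q hQ, Paa, Pab, Pba, Pbb]
      simp only [h01, h02, h12, h01.symm, h02.symm, h12.symm, if_true, if_false]
      intro h
      ring_nf at h
      first
        | exact one_ne_zero (α := F) (by linear_combination h - h20)
        | exact one_ne_zero (α := F) (by linear_combination h)
        | exact one_ne_zero (α := F) (by linear_combination -h)
        | exact one_ne_zero (α := F) (by linear_combination -h - h20)
        | exact one_ne_zero (α := F) (by linear_combination -h + h20)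
        | exact one_ne_zero (α := F) (by linear_combination h + h20)

end Cfsg.Agent.H886
end

-- part: H886/Local
section
/-!
Bases of the members of an orthogonal decomposition over small fields.
-/

set_option autoImplicit false
set_option linter.unusedSectionVars false
set_option linter.unusedSimpArgs false

namespace Cfsg.Agent.H886

open Matrix Cfsg.Geo QuadraticMap
open scoped MatrixGroups

variable {ι : Type} [Fintype ι] [DecidableEq ι] {F : Type*} [Field F]

/-- A family spanning a member with prescribed values of the form transfers to all members. -/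
theorem transfer (Q : (ι → F) → F) {t k : ℕ}
    {D : Fin t → Submodule F (ι → F)} (hD : IsOrthogonalMDecomposition Q k D) (i0 : Fin t)
    {m : ℕ} (w : Fin m → (ι → F)) (hw : ∀ a, w a ∈ D i0)
    (hspan : ∀ x ∈ D i0, ∃ c : Fin m → F, x = ∑ a, c a • w a) :
    ∃ v : Fin t → Fin m → (ι → F), (∀ i a, v i a ∈ D i) ∧ (∀ i a, Q (v i a) = Q (w a)) ∧
      (∀ i a b, polar Q (v i a) (v i b) = polar Q (w a) (w b)) ∧
      (∀ i, ∀ x ∈ D i, ∃ c : Fin m → F, x = ∑ a, c a • v i a) := by
  choose e he using fun i => hD.isometric i0 i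
  refine ⟨fun i a => ((e i ⟨w a, hw a⟩ : D i) : ι → F), fun i a => (e i ⟨w a, hw a⟩).2,
    fun i a => he i ⟨w a, hw a⟩, fun i a b => ?_, fun i x hx => ?_⟩
  · have h1 := he i (⟨w a, hw a⟩ + ⟨w b, hw b⟩)
    rw [map_add] at h1
    simp only [polar]
    have h2 := he i ⟨w a, hw a⟩
    have h3 := he i ⟨w b, hw b⟩
    rw [h2, h3]
    have h4 : ((e i ⟨w a, hw a⟩ + e i ⟨w b, hw b⟩ : D i) : ι → F) =
      ((e i ⟨w a, hw a⟩ : D i) : ι → F) + ((e i ⟨w b, hw b⟩ : D i) : ι → F) := rfl
    rw [← h4, h1]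
    rfl
  · obtain ⟨c, hc⟩ := hspan ((e i).symm ⟨x, hx⟩ : D i0) ((e i).symm ⟨x, hx⟩).2
    refine ⟨c, ?_⟩
    have h1 : (e i).symm ⟨x, hx⟩ = ∑ a, c a • (⟨w a, hw a⟩ : D i0) := by
      apply Subtype.ext
      rw [hc]
      simp
    have h2 : (⟨x, hx⟩ : D i) = e i (∑ a, c a • (⟨w a, hw a⟩ : D i0)) := by
      rw [← h1, LinearEquiv.apply_symm_apply]
    rw [map_sum] at h2
    simp only [map_smul] at h2
    have h3 : x = ((∑ a, c a • e i ⟨w a, hw a⟩ : D i) : ι → F) := congrArg Subtype.val h2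
    rw [h3, Submodule.coe_sum]
    rfl

theorem span_of_dual (Q : (ι → F) → F) (hQ : IsNondegenerateQuadraticForm Q)
    (W : Submodule F (ι → F)) {m : ℕ} (hW : Module.finrank F W = m) (w w' : Fin m → (ι → F))
    (hw : ∀ a, w a ∈ W) (hdual : ∀ a b, polar Q (w a) (w' b) = if a = b then 1 else 0) :
    ∀ x ∈ W, ∃ c : Fin m → F, x = ∑ a, c a • w a := by
  have hli : LinearIndependent F w := by
    rw [Fintype.linearIndependent_iff]
    intro g hg a
    have hB : ∀ y : ι → F, polar Q (∑ b, g b • w b) y = ∑ b, g b * polar Q (w b) y := by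
      intro y
      have h0 : (polarBilin (Cfsg.Agent.H889.bundleQ Q hQ)) (∑ b, g b • w b) y =
          ∑ b, g b * (polarBilin (Cfsg.Agent.H889.bundleQ Q hQ)) (w b) y := by
        rw [map_sum, LinearMap.sum_apply]
        refine Finset.sum_congr rfl fun b _ => ?_
        rw [map_smul, LinearMap.smul_apply, smul_eq_mul]
      exact h0
    have h1 := hB (w' a)
    rw [hg, pl_zero_left Q hQ] at h1
    simp only [hdual] at h1
    simpa using h1.symm
  have hle : Submodule.span F (Set.range w) ≤ W := by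
    rw [Submodule.span_le]
    rintro _ ⟨a, rfl⟩
    exact hw a
  have heq : Submodule.span F (Set.range w) = W := by
    apply Submodule.eq_of_le_of_finrank_eq hle
    rw [finrank_span_eq_card hli, hW, Fintype.card_fin]
  intro x hx
  rw [← heq] at hx
  obtain ⟨c, hc⟩ := (Submodule.mem_span_range_iff_exists_fun F).1 hx
  exact ⟨c, hc.symm⟩

/-- An orthogonal basis of a non-degenerate subspace, odd characteristic. -/
theorem exists_orth_basis (Q : (ι → F) → F) (hQ : IsNondegenerateQuadraticForm Q)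
    (h2 : (2 : F) ≠ 0) (W : Submodule F (ι → F)) (hW : IsNondegenerateOn (polar Q) W) {m : ℕ}
    (hm : Module.finrank F W = m) :
    ∃ w : Fin m → (ι → F), (∀ a, w a ∈ W) ∧ (∀ a, Q (w a) ≠ 0) ∧
      (∀ a b, a ≠ b → polar Q (w a) (w b) = 0) ∧
      (∀ x ∈ W, ∃ c : Fin m → F, x = ∑ a, c a • w a) := by
  subst hm
  have : Invertible (2 : F) := invertibleOfNonzero h2
  let Bf : LinearMap.BilinForm F W :=
    (polarBilin (Cfsg.Agent.H889.bundleQ Q hQ)).compl₁₂ W.subtype W.subtype
  have hBf : ∀ x y : W, Bf x y = polar Q (x : ι → F) (y : ι → F) := fun x y => rfl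
  have hsymm : LinearMap.IsSymm Bf := ⟨fun x y => by
    change polar Q (x : ι → F) (y : ι → F) = polar Q (y : ι → F) (x : ι → F)
    exact polar_comm _ _ _⟩
  obtain ⟨v, hv⟩ := LinearMap.BilinForm.exists_orthogonal_basis hsymm
  refine ⟨fun a => (v a : ι → F), fun a => (v a).2, fun a h0 => ?_, fun a b hab => ?_,
    fun x hx => ?_⟩
  · have hne : ((v a : W) : ι → F) ≠ 0 := fun h => v.ne_zero a (Subtype.ext h)
    obtain ⟨-, y, hy, hy'⟩ := hW _ (v a).2 hne
    apply hy'
    have hy2 : (⟨y, hy⟩ : W) = ∑ b, v.repr ⟨y, hy⟩ b • v b := (v.sum_repr _).symm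
    have h3 : Bf (v a) ⟨y, hy⟩ = 0 := by
      rw [hy2, map_sum]
      refine Finset.sum_eq_zero fun b _ => ?_
      rw [map_smul]
      by_cases hab : a = b
      · subst hab
        rw [hBf, pl_self Q hQ, h0, mul_zero, smul_zero]
      · have : Bf (v a) (v b) = 0 := hv hab
        rw [this, smul_zero]
    exact h3
  · exact hv hab
  · refine ⟨fun a => v.repr ⟨x, hx⟩ a, ?_⟩
    have h3 : ((∑ a, v.repr ⟨x, hx⟩ a • v a : W) : ι → F) = x :=
      congrArg Subtype.val (v.sum_repr ⟨x, hx⟩)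
    rw [Submodule.coe_sum] at h3
    exact h3.symm

/-- A hyperbolic partner inside a non-degenerate subspace. -/
theorem exists_partner (Q : (ι → F) → F) (hQ : IsNondegenerateQuadraticForm Q)
    (W : Submodule F (ι → F)) (hW : IsNondegenerateOn (polar Q) W) (e : ι → F) (he : e ∈ W)
    (hne : e ≠ 0) (hQe : Q e = 0) :
    ∃ f ∈ W, Q f = 0 ∧ polar Q e f = 1 := by
  obtain ⟨-, y, hy, hy'⟩ := hW e he hne
  obtain ⟨y', hy'W, h1⟩ : ∃ y' ∈ W, polar Q e y' = 1 :=
    ⟨(polar Q e y)⁻¹ • y, W.smul_mem _ hy, by rw [pl_smul_right Q hQ, inv_mul_cancel₀ hy']⟩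
  refine ⟨y' - Q y' • e, W.sub_mem hy'W (W.smul_mem _ he), ?_, ?_⟩
  · rw [q_sub Q hQ, hQ.smul, hQe, pl_smul_right Q hQ, polar_comm, h1]; ring
  · rw [pl_sub_right Q hQ, pl_smul_right Q hQ, pl_self Q hQ, hQe, h1]; ring

/-- The hyperbolic plane. -/
theorem plus_two (Q : (ι → F) → F) (hQ : IsNondegenerateQuadraticForm Q)
    (W : Submodule F (ι → F)) (hW : IsNondegenerateOn (polar Q) W)
    (hm : Module.finrank F W = 2) (hplus : IsPlusTypeOn Q W) :
    ∃ e ∈ W, ∃ f ∈ W, Q e = 0 ∧ Q f = 0 ∧ polar Q e f = 1 := by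
  obtain ⟨U, hUW, hU, hdim⟩ := hplus
  have h1 : Module.finrank F U = 1 := by omega
  have : U ≠ ⊥ := by
    intro h
    rw [h, finrank_bot] at h1
    omega
  obtain ⟨e, he, hne⟩ := Submodule.exists_mem_ne_zero_of_ne_bot this
  obtain ⟨f, hf, hQf, hef⟩ := exists_partner Q hQ W hW e (hUW he) hne (hU e he)
  exact ⟨e, hUW he, f, hf, hU e he, hQf, hef⟩

/-- Two hyperbolic pairs in a plus-type 4-space. -/
theorem plus_four (Q : (ι → F) → F) (hQ : IsNondegenerateQuadraticForm Q)
    (W : Submodule F (ι → F)) (hW : IsNondegenerateOn (polar Q) W)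
    (hm : Module.finrank F W = 4) (hplus : IsPlusTypeOn Q W) :
    ∃ e ∈ W, ∃ f ∈ W, ∃ e' ∈ W, ∃ f' ∈ W, Q e = 0 ∧ Q f = 0 ∧ Q e' = 0 ∧ Q f' = 0 ∧
      polar Q e f = 1 ∧ polar Q e' f' = 1 ∧ polar Q e e' = 0 ∧ polar Q e f' = 0 ∧
      polar Q f e' = 0 ∧ polar Q f f' = 0 := by
  obtain ⟨U, hUW, hU, hdim⟩ := hplus
  have h2 : Module.finrank F U = 2 := by omega
  let bU := Module.finBasisOfFinrankEq F U h2
  set e : ι → F := (bU 0 : ι → F) with he
  set e' : ι → F := (bU 1 : ι → F) with he'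
  have heU : e ∈ U := (bU 0).2
  have he'U : e' ∈ U := (bU 1).2
  have hQe : Q e = 0 := hU _ heU
  have hQe' : Q e' = 0 := hU _ he'U
  have hee' : polar Q e e' = 0 := by
    simp only [polar]
    rw [hU _ (U.add_mem heU he'U), hQe, hQe']; ring
  have hne' : e' ≠ 0 := fun h => bU.ne_zero 1 (Subtype.ext h)
  have hindep : ∀ c : F, e - c • e' ≠ 0 := by
    intro c h
    have h3 : (bU 0) = c • (bU 1) := Subtype.ext (sub_eq_zero.1 h)
    have := bU.linearIndependent
    have h4 := congrArg (fun x => bU.repr x 0) h3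
    simp at h4
  -- partner of `e` orthogonal to `e'`
  have key : ∃ y ∈ W, polar Q e' y = 0 ∧ polar Q e y ≠ 0 := by
    by_contra hcon
    push Not at hcon
    obtain ⟨y0, hy0, hQy0, he'y0⟩ := exists_partner Q hQ W hW e' (hUW he'U) hne' hQe'
    have hall : ∀ y ∈ W, polar Q (e - polar Q e y0 • e') y = 0 := by
      intro y hy
      have h5 := hcon (y - polar Q e' y • y0) (W.sub_mem hy (W.smul_mem _ hy0)) (by
        rw [pl_sub_right Q hQ, pl_smul_right Q hQ, he'y0]; ring)
      rw [pl_sub_right Q hQ, pl_smul_right Q hQ] at h5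
      rw [pl_sub_left Q hQ, pl_smul_left Q hQ]
      linear_combination h5
    obtain ⟨-, y, hy, hy'⟩ := hW (e - polar Q e y0 • e')
      (W.sub_mem (hUW heU) (W.smul_mem _ (hUW he'U))) (hindep _)
    exact hy' (hall y hy)
  obtain ⟨y, hy, hy1, hy2⟩ := key
  obtain ⟨y1, a3, a1, a2⟩ : ∃ y1 ∈ W, polar Q e y1 = 1 ∧ polar Q e' y1 = 0 :=
    ⟨(polar Q e y)⁻¹ • y, W.smul_mem _ hy, by rw [pl_smul_right Q hQ, inv_mul_cancel₀ hy2],
      by rw [pl_smul_right Q hQ, hy1, mul_zero]⟩
  obtain ⟨f, hfW, hQf, hef, he'f⟩ : ∃ f ∈ W, Q f = 0 ∧ polar Q e f = 1 ∧ polar Q e' f = 0 := by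
    refine ⟨y1 - Q y1 • e, W.sub_mem a3 (W.smul_mem _ (hUW heU)), ?_, ?_, ?_⟩
    · rw [q_sub Q hQ, hQ.smul, hQe, pl_smul_right Q hQ, polar_comm, a1]; ring
    · rw [pl_sub_right Q hQ, pl_smul_right Q hQ, pl_self Q hQ, hQe, a1]; ring
    · rw [pl_sub_right Q hQ, pl_smul_right Q hQ, polar_comm Q e' e, hee', a2]; ring
  obtain ⟨z, hz, hQz, he'z⟩ := exists_partner Q hQ W hW e' (hUW he'U) hne' hQe'
  -- make `z` orthogonal to `e` and `f`
  obtain ⟨z1, hz1W, b1, b2, b3⟩ : ∃ z1 ∈ W, polar Q e z1 = 0 ∧ polar Q f z1 = 0 ∧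
      polar Q e' z1 = 1 := by
    refine ⟨z - polar Q e z • f - polar Q f z • e,
      W.sub_mem (W.sub_mem hz (W.smul_mem _ hfW)) (W.smul_mem _ (hUW heU)), ?_, ?_, ?_⟩
    · rw [pl_sub_right Q hQ, pl_sub_right Q hQ, pl_smul_right Q hQ, pl_smul_right Q hQ, hef,
        pl_self Q hQ, hQe]; ring
    · rw [pl_sub_right Q hQ, pl_sub_right Q hQ, pl_smul_right Q hQ, pl_smul_right Q hQ,
        pl_self Q hQ, hQf, polar_comm Q f e, hef]; ring
    · rw [pl_sub_right Q hQ, pl_sub_right Q hQ, pl_smul_right Q hQ, pl_smul_right Q hQ,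
        he'z, he'f, polar_comm Q e' e, hee']; ring
  refine ⟨e, hUW heU, f, hfW, e', hUW he'U, z1 - Q z1 • e', W.sub_mem hz1W (W.smul_mem _ (hUW he'U)),
    hQe, hQf, hQe', ?_, hef, ?_, hee', ?_, ?_, ?_⟩
  · rw [q_sub Q hQ, hQ.smul, hQe', pl_smul_right Q hQ, polar_comm, b3]; ring
  · rw [pl_sub_right Q hQ, pl_smul_right Q hQ, pl_self Q hQ, hQe', b3]; ring
  · rw [pl_sub_right Q hQ, pl_smul_right Q hQ, hee', b1]; ring
  · rw [polar_comm]; exact he'f
  · rw [pl_sub_right Q hQ, pl_smul_right Q hQ, polar_comm Q f e', he'f, b2]; ring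

end Cfsg.Agent.H886
end

-- part: H886/NotMax
section
/-!
Non-maximality of stabilisers of orthogonal decompositions over small fields: the list of all cases.
-/

set_option autoImplicit false
set_option linter.unusedSectionVars false
set_option linter.unusedSimpArgs false

namespace Cfsg.Agent.H886

open Matrix Cfsg.Geo QuadraticMap
open scoped MatrixGroups

theorem finrank_mdecomposition {ι : Type} [Fintype ι] [DecidableEq ι] {F : Type*} [Field F]
    {t k : ℕ} {D : Fin t → Submodule F (ι → F)} (hD : IsMDecomposition k D) :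
    t * k = Fintype.card ι := by
  classical
  have hint : DirectSum.IsInternal D :=
    DirectSum.isInternal_submodule_of_iSupIndep_of_iSup_eq_top hD.indep hD.iSup_eq_top
  have h1 := LinearEquiv.finrank_eq (LinearEquiv.ofBijective (DirectSum.coeLinearMap D) hint)
  rw [Module.finrank_directSum, Module.finrank_pi] at h1
  rw [← h1, Finset.sum_congr rfl (fun i _ => hD.finrank_eq i)]
  simp

variable {ι : Type} [Fintype ι] [DecidableEq ι] {F : Type*} [Field F] [Fintype F]

theorem three_facts (hF : Fintype.card F = 3) :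
    (3 : F) = 0 ∧ (2 : F) ≠ 0 ∧ ∀ x : F, x = 0 ∨ x = 1 ∨ x = -1 := by
  have h3 : (3 : F) = 0 := by
    have := FiniteField.cast_card_eq_zero F
    rw [hF] at this
    exact_mod_cast this
  refine ⟨h3, ?_, fun x => ?_⟩
  · intro h2
    exact one_ne_zero (α := F) (by linear_combination h3 - h2)
  · have := FiniteField.pow_card x
    rw [hF] at this
    have h : x * ((x - 1) * (x + 1)) = 0 := by linear_combination this
    rcases mul_eq_zero.1 h with h | h
    · exact Or.inl h
    · rcases mul_eq_zero.1 h with h | h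
      · exact Or.inr (Or.inl (by linear_combination h))
      · exact Or.inr (Or.inr (by linear_combination h))

theorem five_facts (hF : Fintype.card F = 5) :
    (5 : F) = 0 ∧ (2 : F) ≠ 0 ∧ ∀ x : F, x = 0 ∨ x = 1 ∨ x = -1 ∨ x = 2 ∨ x = -2 := by
  have h5 : (5 : F) = 0 := by
    have := FiniteField.cast_card_eq_zero F
    rw [hF] at this
    exact_mod_cast this
  refine ⟨h5, ?_, fun x => ?_⟩
  · intro h2
    exact one_ne_zero (α := F) (by linear_combination h5 - 2 * h2)
  · have := FiniteField.pow_card x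
    rw [hF] at this
    have h : x * ((x - 1) * ((x + 1) * ((x - 2) * (x + 2)))) = 0 := by
      linear_combination this - (x ^ 3 - x) * h5
    rcases mul_eq_zero.1 h with h | h
    · exact Or.inl h
    · rcases mul_eq_zero.1 h with h | h
      · exact Or.inr (Or.inl (by linear_combination h))
      · rcases mul_eq_zero.1 h with h | h
        · exact Or.inr (Or.inr (Or.inl (by linear_combination h)))
        · rcases mul_eq_zero.1 h with h | h
          · exact Or.inr (Or.inr (Or.inr (Or.inl (by linear_combination h))))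
          · exact Or.inr (Or.inr (Or.inr (Or.inr (by linear_combination h))))

theorem two_facts (hF : Fintype.card F = 2) :
    (2 : F) = 0 ∧ ∀ x : F, x = 0 ∨ x = 1 := by
  have h2 : (2 : F) = 0 := by
    have := FiniteField.cast_card_eq_zero F
    rw [hF] at this
    exact_mod_cast this
  refine ⟨h2, fun x => ?_⟩
  have := FiniteField.pow_card x
  rw [hF] at this
  have h : x * (x - 1) = 0 := by linear_combination this
  rcases mul_eq_zero.1 h with h | h
  · exact Or.inl h
  · exact Or.inr (by linear_combination h)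

theorem four_facts (hF : Fintype.card F = 4) :
    (2 : F) = 0 ∧ (∀ x : F, x ^ 4 = x) ∧ ∃ ω : F, ω ^ 2 = ω + 1 := by
  have h2 : (2 : F) = 0 := by
    have := FiniteField.cast_card_eq_zero F
    rw [hF] at this
    have h4 : (4 : F) = 0 := by exact_mod_cast this
    have : (2 : F) * 2 = 0 := by linear_combination h4
    rcases mul_eq_zero.1 this with h | h
    · exact h
    · exact h
  have h4 : ∀ x : F, x ^ 4 = x := by
    intro x
    have := FiniteField.pow_card x
    rwa [hF] at this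
  refine ⟨h2, h4, ?_⟩
  classical
  obtain ⟨x, hx⟩ : ∃ x : F, x ∉ ({0, 1} : Finset F) := by
    by_contra hcon
    push Not at hcon
    have h1 : (Finset.univ : Finset F).card ≤ ({0, 1} : Finset F).card :=
      Finset.card_le_card (fun x _ => hcon x)
    rw [Finset.card_univ, hF] at h1
    have h3 : ({0, 1} : Finset F).card ≤ 2 := Finset.card_le_two
    omega
  simp only [Finset.mem_insert, Finset.mem_singleton, not_or] at hx
  refine ⟨x, ?_⟩
  have h : x * ((x - 1) * (x ^ 2 + x + 1)) = 0 := by linear_combination h4 x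
  rcases mul_eq_zero.1 h with h | h
  · exact absurd h hx.1
  · rcases mul_eq_zero.1 h with h | h
    · exact absurd (by linear_combination h) hx.2
    · linear_combination h - (x + 1) * h2

theorem not_max_three_two (hF : Fintype.card F = 3) (hι : 13 ≤ Fintype.card ι)
    (Q : (ι → F) → F) (hQ : IsNondegenerateQuadraticForm Q) {t : ℕ}
    (D : Fin t → Submodule F (ι → F)) (hD : IsOrthogonalMDecomposition Q 2 D) :
    ∃ K : Subgroup (GL ι F), decompositionStabilizer D ⊓ omegaGL Q < K ∧ K < omegaGL Q := by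
  obtain ⟨h3, h2, hall⟩ := three_facts hF
  have htk := finrank_mdecomposition hD.decomp.decomp
  have ht : 5 ≤ t := by omega
  let i0 : Fin t := ⟨0, by omega⟩
  obtain ⟨w, hw, hQw, horth, hspan⟩ := exists_orth_basis Q hQ h2 (D i0)
    (hD.decomp.nondegenerate i0) (hD.decomp.decomp.finrank_eq i0)
  obtain ⟨v, hv, hQv, hpv, hspanv⟩ := transfer Q hD i0 w hw hspan
  have hcalc : ∀ i (c : Fin 2 → F), Q (∑ a, c a • v i a) =
      (c 0) ^ 2 * Q (w 0) + (c 1) ^ 2 * Q (w 1) := by
    intro i c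
    rw [Fin.sum_univ_two, q_add Q hQ, hQ.smul, hQ.smul, pl_smul_left Q hQ, pl_smul_right Q hQ, hpv,
      horth 0 1 (by decide), hQv, hQv]
    ring
  have hone : (1 : F) ≠ 0 := one_ne_zero
  have hn1 : (-1 : F) ≠ 1 := fun h => h2 (by linear_combination - h)
  have hframe : ∀ c : F, c ≠ 0 → Q (w 0) = c → Q (w 1) = c →
      ∃ K : Subgroup (GL ι F), decompositionStabilizer D ⊓ omegaGL Q < K ∧ K < omegaGL Q := by
    intro c hc h0 h1
    have hwc : ∀ a, Q (w a) = c := by
      intro a; fin_cases a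
      · exact h0
      · exact h1
    refine frame_case Q hQ h2 D hD ht le_rfl c hc v hv (fun i a => by rw [hQv, hwc])
      (fun i a b hab => by rw [hpv, horth a b hab]) ?_
    intro i x hx hxc
    obtain ⟨d, rfl⟩ := hspanv i x hx
    rw [hcalc, h0, h1] at hxc
    have hxc' : d 0 ^ 2 + d 1 ^ 2 = 1 := by
      apply mul_right_cancel₀ hc
      linear_combination hxc
    rw [Fin.sum_univ_two]
    rcases hall (d 0) with e0 | e0 | e0 <;> rcases hall (d 1) with e1 | e1 | e1 <;>
      rw [e0, e1] at hxc' ⊢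
    · exfalso; apply hone; linear_combination - hxc'
    · exact ⟨1, Or.inl (by simp)⟩
    · exact ⟨1, Or.inr (by simp)⟩
    · exact ⟨0, Or.inl (by simp)⟩
    · exfalso; apply hone; linear_combination hxc'
    · exfalso; apply hone; linear_combination hxc'
    · exact ⟨0, Or.inr (by simp)⟩
    · exfalso; apply hone; linear_combination hxc'
    · exfalso; apply hone; linear_combination hxc'
  have hsplit : ∀ (a b : Fin 2), a ≠ b → Q (w a) = 1 → Q (w b) = -1 →
      ∃ K : Subgroup (GL ι F), decompositionStabilizer D ⊓ omegaGL Q < K ∧ K < omegaGL Q := by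
    intro a b hab ha hb
    refine split_case Q hQ h3 D hD ht (fun i => v i a) (fun i => v i b) (fun i => hv i a)
      (fun i => hv i b) (fun i => by rw [hQv, ha]) (fun i => by rw [hQv, hb])
      (fun i => by rw [hpv, horth a b hab]) ?_
    intro i x hx hxc
    obtain ⟨d, rfl⟩ := hspanv i x hx
    have hsum : ∑ c, d c • v i c = d a • v i a + d b • v i b := by
      rw [Fin.sum_univ_two]
      fin_cases a <;> fin_cases b
      · exact absurd rfl hab
      · rfl
      · exact add_comm _ _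
      · exact absurd rfl hab
    rw [hsum, q_add Q hQ, hQ.smul, hQ.smul, pl_smul_left Q hQ, pl_smul_right Q hQ, hpv,
      horth a b hab, hQv, hQv, ha, hb] at hxc
    rw [hsum]
    rcases hall (d a) with e0 | e0 | e0 <;> rcases hall (d b) with e1 | e1 | e1 <;>
      rw [e0, e1] at hxc ⊢
    · exfalso; apply hone; linear_combination - hxc
    · exfalso; apply hn1; linear_combination hxc
    · exfalso; apply hn1; linear_combination hxc
    · exact Or.inl (by simp)
    · exfalso; apply hone; linear_combination - hxc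
    · exfalso; apply hone; linear_combination - hxc
    · exact Or.inr (by simp)
    · exfalso; apply hone; linear_combination - hxc
    · exfalso; apply hone; linear_combination - hxc
  rcases hall (Q (w 0)) with h0 | h0 | h0
  · exact absurd h0 (hQw 0)
  · rcases hall (Q (w 1)) with h1 | h1 | h1
    · exact absurd h1 (hQw 1)
    · exact hframe 1 hone h0 h1
    · exact hsplit 0 1 (by decide) h0 h1
  · rcases hall (Q (w 1)) with h1 | h1 | h1
    · exact absurd h1 (hQw 1)
    · exact hsplit 1 0 (by decide) h1 h0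
    · exact hframe (-1) (neg_ne_zero.2 hone) h0 h1

theorem not_max_three_three (hF : Fintype.card F = 3) (hι : 13 ≤ Fintype.card ι)
    (Q : (ι → F) → F) (hQ : IsNondegenerateQuadraticForm Q) {t : ℕ}
    (D : Fin t → Submodule F (ι → F)) (hD : IsOrthogonalMDecomposition Q 3 D) :
    ∃ K : Subgroup (GL ι F), decompositionStabilizer D ⊓ omegaGL Q < K ∧ K < omegaGL Q := by
  obtain ⟨h3, h2, hall⟩ := three_facts hF
  have htk := finrank_mdecomposition hD.decomp.decomp
  have ht : 5 ≤ t := by omega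
  let i0 : Fin t := ⟨0, by omega⟩
  have hone : (1 : F) ≠ 0 := one_ne_zero
  -- an orthogonal basis with constant values
  obtain ⟨w', hw', hQw', horth', hspan'⟩ := exists_orth_basis Q hQ h2 (D i0)
    (hD.decomp.nondegenerate i0) (hD.decomp.decomp.finrank_eq i0)
  have hconst : ∃ (c : F) (w : Fin 3 → (ι → F)), c ≠ 0 ∧ (∀ a, w a ∈ D i0) ∧
      (∀ a, Q (w a) = c) ∧ (∀ a b, a ≠ b → polar Q (w a) (w b) = 0) ∧
      (∀ x ∈ D i0, ∃ c : Fin 3 → F, x = ∑ a, c a • w a) := by
    -- replace two vectors with equal values by their sum and difference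
    have hmix : ∀ (c : F) (x y z : ι → F), c ≠ 0 → x ∈ D i0 → y ∈ D i0 → z ∈ D i0 →
        Q x = c → Q y = c → Q z = -c → polar Q x y = 0 → polar Q x z = 0 → polar Q y z = 0 →
        (∀ u ∈ D i0, ∃ p q r : F, u = p • x + q • y + r • z) →
        ∃ (c : F) (w : Fin 3 → (ι → F)), c ≠ 0 ∧ (∀ a, w a ∈ D i0) ∧
        (∀ a, Q (w a) = c) ∧ (∀ a b, a ≠ b → polar Q (w a) (w b) = 0) ∧
        (∀ x ∈ D i0, ∃ c : Fin 3 → F, x = ∑ a, c a • w a) := by
      intro c x y z hc hx hy hz hQx hQy hQz hxy hxz hyz hsp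
      have hyx : polar Q y x = 0 := by rw [polar_comm]; exact hxy
      have hzx : polar Q z x = 0 := by rw [polar_comm]; exact hxz
      have hzy : polar Q z y = 0 := by rw [polar_comm]; exact hyz
      refine ⟨-c, ![x + y, x - y, z], neg_ne_zero.2 hc, ?_, ?_, ?_, ?_⟩
      · intro a; fin_cases a
        · exact (D i0).add_mem hx hy
        · exact (D i0).sub_mem hx hy
        · exact hz
      · intro a; fin_cases a
        · change Q (x + y) = -c
          rw [q_add Q hQ, hQx, hQy, hxy]; linear_combination c * h3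
        · change Q (x - y) = -c
          rw [q_sub Q hQ, hQx, hQy, hxy]; linear_combination c * h3
        · exact hQz
      · intro a b hab
        fin_cases a <;> fin_cases b <;> first
          | exact absurd rfl hab
          | (simp [pl_add_left Q hQ, pl_add_right Q hQ, pl_sub_left Q hQ, pl_sub_right Q hQ, hxy,
              hyx, hxz, hzx, hyz, hzy, pl_self Q hQ, hQx, hQy])
      · intro u hu
        obtain ⟨p, q, r, rfl⟩ := hsp u hu
        refine ⟨![-(p + q), -(p - q), r], ?_⟩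
        rw [Fin.sum_univ_three]
        simp only [Matrix.cons_val_zero, Matrix.cons_val_one, Matrix.cons_val_two,
          Matrix.head_cons, Matrix.tail_cons, Matrix.cons_val]
        have e1 : -(p + q) • (x + y) + -(p - q) • (x - y) = (-2 * p) • x + (-2 * q) • y := by
          module
        have e2 : (-2 : F) = 1 := by linear_combination - h3
        rw [e1, e2, one_mul, one_mul]
    have hsp3 : ∀ u ∈ D i0, ∃ p q r : F, u = p • w' 0 + q • w' 1 + r • w' 2 := by
      intro u hu
      obtain ⟨c, hc⟩ := hspan' u hu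
      exact ⟨c 0, c 1, c 2, by rw [hc, Fin.sum_univ_three]⟩
    have o01 := horth' 0 1 (by decide)
    have o02 := horth' 0 2 (by decide)
    have o12 := horth' 1 2 (by decide)
    have o10 := horth' 1 0 (by decide)
    have o20 := horth' 2 0 (by decide)
    have o21 := horth' 2 1 (by decide)
    have hval : ∀ a b, Q (w' a) = Q (w' b) ∨ Q (w' a) = - Q (w' b) := by
      intro a b
      rcases hall (Q (w' a)) with h | h | h
      · exact absurd h (hQw' a)
      · rcases hall (Q (w' b)) with h' | h' | h'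
        · exact absurd h' (hQw' b)
        · left; rw [h, h']
        · right; rw [h, h', neg_neg]
      · rcases hall (Q (w' b)) with h' | h' | h'
        · exact absurd h' (hQw' b)
        · right; rw [h, h']
        · left; rw [h, h']
    rcases hval 1 0 with h10 | h10
    · rcases hval 2 0 with h20 | h20
      · refine ⟨Q (w' 0), w', hQw' 0, hw', ?_, horth', hspan'⟩
        intro a; fin_cases a
        · rfl
        · exact h10
        · exact h20
      · exact hmix _ (w' 0) (w' 1) (w' 2) (hQw' 0) (hw' _) (hw' _) (hw' _) rfl h10 h20 o01 o02 o12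
          hsp3
    · rcases hval 2 0 with h20 | h20
      · refine hmix _ (w' 0) (w' 2) (w' 1) (hQw' 0) (hw' _) (hw' _) (hw' _) rfl h20 h10 o02 o01 o21
          ?_
        intro u hu
        obtain ⟨p, q, r, h⟩ := hsp3 u hu
        exact ⟨p, r, q, by rw [h]; abel⟩
      · refine hmix _ (w' 1) (w' 2) (w' 0) (hQw' 1) (hw' _) (hw' _) (hw' _) rfl
          (by rw [h20, h10]) (by rw [h10, neg_neg]) o12 o10 o20 ?_
        intro u hu
        obtain ⟨p, q, r, h⟩ := hsp3 u hu
        exact ⟨q, r, p, by rw [h]; abel⟩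
  obtain ⟨c, w, hc, hw, hQw, horth, hspan⟩ := hconst
  obtain ⟨v, hv, hQv, hpv, hspanv⟩ := transfer Q hD i0 w hw hspan
  refine frame_case Q hQ h2 D hD ht (by norm_num) c hc v hv (fun i a => by rw [hQv, hQw])
    (fun i a b hab => by rw [hpv, horth a b hab]) ?_
  intro i x hx hxc
  obtain ⟨d, rfl⟩ := hspanv i x hx
  rw [Fin.sum_univ_three] at hxc ⊢
  have o01 := horth 0 1 (by decide)
  have o02 := horth 0 2 (by decide)
  have o12 := horth 1 2 (by decide)
  rw [q_add Q hQ, q_add Q hQ, hQ.smul, hQ.smul, hQ.smul, hQv, hQv, hQv, hQw, hQw, hQw] at hxc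
  simp only [pl_add_left Q hQ, pl_smul_left Q hQ, pl_smul_right Q hQ, hpv, o01, o02, o12] at hxc
  have hxc' : d 0 ^ 2 + d 1 ^ 2 + d 2 ^ 2 = 1 := by
    apply mul_right_cancel₀ hc
    linear_combination hxc
  rcases hall (d 0) with e0 | e0 | e0 <;> rcases hall (d 1) with e1 | e1 | e1 <;>
    rcases hall (d 2) with e2 | e2 | e2 <;> rw [e0, e1, e2] at hxc' ⊢ <;> first
      | (exfalso; apply hone; linear_combination - hxc'; done)
      | (exfalso; apply hone; linear_combination hxc'; done)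
      | (exfalso; apply hone; linear_combination - hxc' + h3; done)
      | (refine ⟨0, Or.inl ?_⟩; simp; done)
      | (refine ⟨0, Or.inr ?_⟩; simp; done)
      | (refine ⟨1, Or.inl ?_⟩; simp; done)
      | (refine ⟨1, Or.inr ?_⟩; simp; done)
      | (refine ⟨2, Or.inl ?_⟩; simp; done)
      | (refine ⟨2, Or.inr ?_⟩; simp; done)

theorem not_max_five (hF : Fintype.card F = 5) (hι : 13 ≤ Fintype.card ι)
    (Q : (ι → F) → F) (hQ : IsNondegenerateQuadraticForm Q) {t : ℕ}
    (D : Fin t → Submodule F (ι → F)) (hD : IsOrthogonalMDecomposition Q 2 D)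
    (hplus : ∀ i, IsPlusTypeOn Q (D i)) :
    ∃ K : Subgroup (GL ι F), decompositionStabilizer D ⊓ omegaGL Q < K ∧ K < omegaGL Q := by
  obtain ⟨h5, h2, hall⟩ := five_facts hF
  have htk := finrank_mdecomposition hD.decomp.decomp
  have ht : 5 ≤ t := by omega
  let i0 : Fin t := ⟨0, by omega⟩
  have hone : (1 : F) ≠ 0 := one_ne_zero
  obtain ⟨e, he, f, hf, hQe, hQf, hef⟩ := plus_two Q hQ (D i0) (hD.decomp.nondegenerate i0)
    (hD.decomp.decomp.finrank_eq i0) (hplus i0)
  have hfe : polar Q f e = 1 := by rw [polar_comm]; exact hef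
  have hee : polar Q e e = 0 := by rw [pl_self Q hQ, hQe, mul_zero]
  have hff : polar Q f f = 0 := by rw [pl_self Q hQ, hQf, mul_zero]
  have hspan0 := span_of_dual Q hQ (D i0) (hD.decomp.decomp.finrank_eq i0) ![e, f] ![f, e]
    (by intro a; fin_cases a
        · exact he
        · exact hf)
    (by intro a b; fin_cases a <;> fin_cases b <;> simp [hef, hfe, hee, hff])
  -- the frame `e + f`, `2 e + 3 f`
  set w : Fin 2 → (ι → F) := ![e + f, (2 : F) • e + (3 : F) • f] with hwdef
  have hw0 : w 0 = e + f := rfl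
  have hw1 : w 1 = (2 : F) • e + (3 : F) • f := rfl
  have hw : ∀ a, w a ∈ D i0 := by
    intro a; fin_cases a
    · exact (D i0).add_mem he hf
    · exact (D i0).add_mem ((D i0).smul_mem _ he) ((D i0).smul_mem _ hf)
  have hQw : ∀ a, Q (w a) = 1 := by
    intro a; fin_cases a
    · change Q (w 0) = 1
      rw [hw0, q_add Q hQ, hQe, hQf, hef]; ring
    · change Q (w 1) = 1
      rw [hw1, q_add Q hQ, hQ.smul, hQ.smul, hQe, hQf, pl_smul_left Q hQ, pl_smul_right Q hQ, hef]
      linear_combination h5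
  have o01 : polar Q (w 0) (w 1) = 0 := by
    rw [hw0, hw1]
    simp only [pl_add_left Q hQ, pl_add_right Q hQ, pl_smul_right Q hQ, hef, hfe, hee, hff]
    linear_combination h5
  have horth : ∀ a b, a ≠ b → polar Q (w a) (w b) = 0 := by
    intro a b hab
    fin_cases a <;> fin_cases b
    · exact absurd rfl hab
    · exact o01
    · change polar Q (w 1) (w 0) = 0
      rw [polar_comm]; exact o01
    · exact absurd rfl hab
  have hspan : ∀ x ∈ D i0, ∃ c : Fin 2 → F, x = ∑ a, c a • w a := by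
    intro x hx
    obtain ⟨c, hc⟩ := hspan0 x hx
    refine ⟨![3 * c 0 - 2 * c 1, c 1 - c 0], ?_⟩
    rw [hc, Fin.sum_univ_two, Fin.sum_univ_two, hw0, hw1]
    simp only [Matrix.cons_val_zero, Matrix.cons_val_one, Matrix.cons_val]
    module
  obtain ⟨v, hv, hQv, hpv, hspanv⟩ := transfer Q hD i0 w hw hspan
  refine frame_case Q hQ h2 D hD ht le_rfl 1 hone v hv (fun i a => by rw [hQv, hQw])
    (fun i a b hab => by rw [hpv, horth a b hab]) ?_
  intro i x hx hxc
  obtain ⟨d, rfl⟩ := hspanv i x hx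
  rw [Fin.sum_univ_two, q_add Q hQ, hQ.smul, hQ.smul, pl_smul_left Q hQ, pl_smul_right Q hQ, hpv,
    o01, hQv, hQv, hQw, hQw] at hxc
  rw [Fin.sum_univ_two]
  rcases hall (d 0) with e0 | e0 | e0 | e0 | e0 <;>
    rcases hall (d 1) with e1 | e1 | e1 | e1 | e1 <;> rw [e0, e1] at hxc ⊢ <;> first
      | (exfalso; apply hone; linear_combination - hxc; done)
      | (exfalso; apply hone; linear_combination hxc; done)
      | (exfalso; apply hone; linear_combination 2 * hxc - h5; done)
      | (exfalso; apply hone; linear_combination - hxc + h5; done)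
      | (exfalso; apply hone; linear_combination - 2 * hxc + h5; done)
      | (exfalso; apply hone; linear_combination 2 * hxc - 2 * h5; done)
      | (exfalso; apply hone; linear_combination 2 * hxc - 3 * h5; done)
      | (exfalso; apply hone; linear_combination 3 * hxc - 4 * h5; done)
      | (exfalso; apply hone; linear_combination - 2 * hxc + 3 * h5; done)
      | (exfalso; apply hone; linear_combination 3 * hxc - 2 * h5; done)
      | (exfalso; apply hone; linear_combination - hxc + 2 * h5; done)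
      | (exfalso; apply hone; linear_combination - 2 * hxc + 2 * h5; done)
      | (refine ⟨0, Or.inl ?_⟩; simp; done)
      | (refine ⟨0, Or.inr ?_⟩; simp; done)
      | (refine ⟨1, Or.inl ?_⟩; simp; done)
      | (refine ⟨1, Or.inr ?_⟩; simp; done)

theorem not_max_two_two (hF : Fintype.card F = 2) (hι : 13 ≤ Fintype.card ι)
    (Q : (ι → F) → F) (hQ : IsNondegenerateQuadraticForm Q) {t : ℕ}
    (D : Fin t → Submodule F (ι → F)) (hD : IsOrthogonalMDecomposition Q 2 D)
    (hplus : ∀ i, IsPlusTypeOn Q (D i)) :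
    ∃ K : Subgroup (GL ι F), decompositionStabilizer D ⊓ omegaGL Q < K ∧ K < omegaGL Q := by
  obtain ⟨h2, hall⟩ := two_facts hF
  have htk := finrank_mdecomposition hD.decomp.decomp
  have ht : 5 ≤ t := by omega
  let i0 : Fin t := ⟨0, by omega⟩
  have hone : (1 : F) ≠ 0 := one_ne_zero
  obtain ⟨e, he, f, hf, hQe, hQf, hef⟩ := plus_two Q hQ (D i0) (hD.decomp.nondegenerate i0)
    (hD.decomp.decomp.finrank_eq i0) (hplus i0)
  have hfe : polar Q f e = 1 := by rw [polar_comm]; exact hef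
  have hee : polar Q e e = 0 := by rw [pl_self Q hQ, hQe, mul_zero]
  have hff : polar Q f f = 0 := by rw [pl_self Q hQ, hQf, mul_zero]
  have hw : ∀ a, (![e, f] : Fin 2 → (ι → F)) a ∈ D i0 := by
    intro a; fin_cases a
    · exact he
    · exact hf
  have hspan0 := span_of_dual Q hQ (D i0) (hD.decomp.decomp.finrank_eq i0) ![e, f] ![f, e] hw
    (by intro a b; fin_cases a <;> fin_cases b <;> simp [hef, hfe, hee, hff])
  obtain ⟨v, hv, hQv, hpv, hspanv⟩ := transfer Q hD i0 ![e, f] hw hspan0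
  refine two_case Q hQ h2 D hD ht (fun i => v i 0) (fun i => v i 1) (fun i => hv i 0)
    (fun i => hv i 1) (fun i => by rw [hQv]; exact hQe) (fun i => by rw [hQv]; exact hQf)
    (fun i => by rw [hpv]; exact hef) ?_
  intro i x hx hxc
  obtain ⟨d, rfl⟩ := hspanv i x hx
  have q0 : Q (v i 0) = 0 := by rw [hQv]; exact hQe
  have q1 : Q (v i 1) = 0 := by rw [hQv]; exact hQf
  have p01 : polar Q (v i 0) (v i 1) = 1 := by rw [hpv]; exact hef
  rw [Fin.sum_univ_two, q_add Q hQ, hQ.smul, hQ.smul, pl_smul_left Q hQ, pl_smul_right Q hQ,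
    q0, q1, p01] at hxc
  rw [Fin.sum_univ_two]
  rcases hall (d 0) with e0 | e0 <;> rcases hall (d 1) with e1 | e1 <;> rw [e0, e1] at hxc ⊢
  · exfalso; apply hone; linear_combination - hxc
  · exfalso; apply hone; linear_combination - hxc
  · exfalso; apply hone; linear_combination - hxc
  · simp

theorem not_max_two_four (hF : Fintype.card F = 4) (hι : 13 ≤ Fintype.card ι)
    (Q : (ι → F) → F) (hQ : IsNondegenerateQuadraticForm Q) {t : ℕ}
    (D : Fin t → Submodule F (ι → F)) (hD : IsOrthogonalMDecomposition Q 2 D)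
    (hplus : ∀ i, IsPlusTypeOn Q (D i)) :
    ∃ K : Subgroup (GL ι F), decompositionStabilizer D ⊓ omegaGL Q < K ∧ K < omegaGL Q := by
  obtain ⟨h2, h4, ω, hω⟩ := four_facts hF
  have htk := finrank_mdecomposition hD.decomp.decomp
  have ht : 5 ≤ t := by omega
  let i0 : Fin t := ⟨0, by omega⟩
  obtain ⟨e, he, f, hf, hQe, hQf, hef⟩ := plus_two Q hQ (D i0) (hD.decomp.nondegenerate i0)
    (hD.decomp.decomp.finrank_eq i0) (hplus i0)
  have hfe : polar Q f e = 1 := by rw [polar_comm]; exact hef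
  have hee : polar Q e e = 0 := by rw [pl_self Q hQ, hQe, mul_zero]
  have hff : polar Q f f = 0 := by rw [pl_self Q hQ, hQf, mul_zero]
  have hw : ∀ a, (![e, f] : Fin 2 → (ι → F)) a ∈ D i0 := by
    intro a; fin_cases a
    · exact he
    · exact hf
  have hspan0 := span_of_dual Q hQ (D i0) (hD.decomp.decomp.finrank_eq i0) ![e, f] ![f, e] hw
    (by intro a b; fin_cases a <;> fin_cases b <;> simp [hef, hfe, hee, hff])
  obtain ⟨v, hv, hQv, hpv, hspanv⟩ := transfer Q hD i0 ![e, f] hw hspan0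
  refine four_case Q hQ h2 h4 ω hω D hD ht (fun i => v i 0) (fun i => v i 1) (fun i => hv i 0)
    (fun i => hv i 1) (fun i => by rw [hQv]; exact hQe) (fun i => by rw [hQv]; exact hQf)
    (fun i => by rw [hpv]; exact hef) ?_
  intro i x hx
  obtain ⟨d, rfl⟩ := hspanv i x hx
  exact ⟨d 0, d 1, by rw [Fin.sum_univ_two]⟩

theorem not_max_four_two (hF : Fintype.card F = 2) (hι : 13 ≤ Fintype.card ι)
    (Q : (ι → F) → F) (hQ : IsNondegenerateQuadraticForm Q) {t : ℕ}
    (D : Fin t → Submodule F (ι → F)) (hD : IsOrthogonalMDecomposition Q 4 D)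
    (hplus : ∀ i, IsPlusTypeOn Q (D i)) :
    ∃ K : Subgroup (GL ι F), decompositionStabilizer D ⊓ omegaGL Q < K ∧ K < omegaGL Q := by
  obtain ⟨h2, hall⟩ := two_facts hF
  have htk := finrank_mdecomposition hD.decomp.decomp
  have ht : 4 ≤ t := by omega
  let i0 : Fin t := ⟨0, by omega⟩
  obtain ⟨e, he, f, hf, e', he', f', hf', hQe, hQf, hQe', hQf', hef, hef', hee', hef'', hfe',
    hff'⟩ := plus_four Q hQ (D i0) (hD.decomp.nondegenerate i0)
    (hD.decomp.decomp.finrank_eq i0) (hplus i0)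
  have s1 : polar Q f e = 1 := by rw [polar_comm]; exact hef
  have s2 : polar Q f' e' = 1 := by rw [polar_comm]; exact hef'
  have s3 : polar Q e' e = 0 := by rw [polar_comm]; exact hee'
  have s4 : polar Q f' e = 0 := by rw [polar_comm]; exact hef''
  have s5 : polar Q e' f = 0 := by rw [polar_comm]; exact hfe'
  have s6 : polar Q f' f = 0 := by rw [polar_comm]; exact hff'
  have t1 : polar Q e e = 0 := by rw [pl_self Q hQ, hQe, mul_zero]
  have t2 : polar Q f f = 0 := by rw [pl_self Q hQ, hQf, mul_zero]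
  have t3 : polar Q e' e' = 0 := by rw [pl_self Q hQ, hQe', mul_zero]
  have t4 : polar Q f' f' = 0 := by rw [pl_self Q hQ, hQf', mul_zero]
  -- the two anisotropic planes
  obtain ⟨a, haD, ha⟩ : ∃ a ∈ D i0, a = e + f := ⟨_, (D i0).add_mem he hf, rfl⟩
  obtain ⟨b, hbD, hb⟩ : ∃ b ∈ D i0, b = e + e' + f' :=
    ⟨_, (D i0).add_mem ((D i0).add_mem he he') hf', rfl⟩
  obtain ⟨a', ha'D, ha'⟩ : ∃ a' ∈ D i0, a' = e' + f' := ⟨_, (D i0).add_mem he' hf', rfl⟩
  obtain ⟨b', hb'D, hb'⟩ : ∃ b' ∈ D i0, b' = e' + e + f :=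
    ⟨_, (D i0).add_mem ((D i0).add_mem he' he) hf, rfl⟩
  have Qa : Q a = 1 := by rw [ha, q_add Q hQ, hQe, hQf, hef]; ring
  have Qa' : Q a' = 1 := by rw [ha', q_add Q hQ, hQe', hQf', hef']; ring
  have Qb : Q b = 1 := by
    rw [hb, q_add Q hQ, q_add Q hQ, hQe, hQe', hQf', pl_add_left Q hQ, hee', hef', hef'']; ring
  have Qb' : Q b' = 1 := by
    rw [hb', q_add Q hQ, q_add Q hQ, hQe, hQe', hQf, pl_add_left Q hQ, s3, hef, s5]; ring
  have Pab : polar Q a b = 1 := by
    rw [ha, hb]
    simp only [pl_add_left Q hQ, pl_add_right Q hQ, hef, hef', hee', hef'', hfe', hff', s1, s2, s3,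
      s4, s5, s6, t1, t2, t3, t4]
    ring
  have Pa'b' : polar Q a' b' = 1 := by
    rw [ha', hb']
    simp only [pl_add_left Q hQ, pl_add_right Q hQ, hef, hef', hee', hef'', hfe', hff', s1, s2, s3,
      s4, s5, s6, t1, t2, t3, t4]
    ring
  have Paa' : polar Q a a' = 0 := by
    rw [ha, ha']
    simp only [pl_add_left Q hQ, pl_add_right Q hQ, hef, hef', hee', hef'', hfe', hff', s1, s2, s3,
      s4, s5, s6, t1, t2, t3, t4]
    ring
  have Pab' : polar Q a b' = 0 := by
    rw [ha, hb']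
    simp only [pl_add_left Q hQ, pl_add_right Q hQ, hef, hef', hee', hef'', hfe', hff', s1, s2, s3,
      s4, s5, s6, t1, t2, t3, t4]
    linear_combination h2
  have Pba' : polar Q b a' = 0 := by
    rw [hb, ha']
    simp only [pl_add_left Q hQ, pl_add_right Q hQ, hef, hef', hee', hef'', hfe', hff', s1, s2, s3,
      s4, s5, s6, t1, t2, t3, t4]
    linear_combination h2
  have Pbb' : polar Q b b' = 0 := by
    rw [hb, hb']
    simp only [pl_add_left Q hQ, pl_add_right Q hQ, hef, hef', hee', hef'', hfe', hff', s1, s2, s3,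
      s4, s5, s6, t1, t2, t3, t4]
    linear_combination h2
  have u1 : polar Q b a = 1 := by rw [polar_comm]; exact Pab
  have u2 : polar Q b' a' = 1 := by rw [polar_comm]; exact Pa'b'
  have u3 : polar Q a' a = 0 := by rw [polar_comm]; exact Paa'
  have u4 : polar Q b' a = 0 := by rw [polar_comm]; exact Pab'
  have u5 : polar Q a' b = 0 := by rw [polar_comm]; exact Pba'
  have u6 : polar Q b' b = 0 := by rw [polar_comm]; exact Pbb'
  have r1 : polar Q a a = 0 := by rw [pl_self Q hQ, h2, zero_mul]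
  have r2 : polar Q b b = 0 := by rw [pl_self Q hQ, h2, zero_mul]
  have r3 : polar Q a' a' = 0 := by rw [pl_self Q hQ, h2, zero_mul]
  have r4 : polar Q b' b' = 0 := by rw [pl_self Q hQ, h2, zero_mul]
  have hw : ∀ c, (![a, b, a', b'] : Fin 4 → (ι → F)) c ∈ D i0 := by
    intro c; fin_cases c
    · exact haD
    · exact hbD
    · exact ha'D
    · exact hb'D
  have hspan0 := span_of_dual Q hQ (D i0) (hD.decomp.decomp.finrank_eq i0) ![a, b, a', b']
    ![b, a, b', a'] hw
    (by intro c d; fin_cases c <;> fin_cases d <;>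
          simp [Pab, Pa'b', Paa', Pab', Pba', Pbb', u1, u2, u3, u4, u5, u6, r1, r2, r3, r4])
  obtain ⟨v, hv, hQv, hpv, hspanv⟩ := transfer Q hD i0 ![a, b, a', b'] hw hspan0
  refine four_two_case Q hQ hall (by omega) D hD ht (fun i => v i 0) (fun i => v i 1)
    (fun i => v i 2) (fun i => v i 3) (fun i => hv i _) (fun i => hv i _) (fun i => hv i _)
    (fun i => hv i _) (fun i => by rw [hQv]; exact Qa) (fun i => by rw [hQv]; exact Qb)
    (fun i => by rw [hQv]; exact Qa') (fun i => by rw [hQv]; exact Qb')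
    (fun i => by rw [hpv]; exact Pab) (fun i => by rw [hpv]; exact Pa'b')
    (fun i => by rw [hpv]; exact Paa') (fun i => by rw [hpv]; exact Pab')
    (fun i => by rw [hpv]; exact Pba') (fun i => by rw [hpv]; exact Pbb') ?_
  intro i x hx
  obtain ⟨d, rfl⟩ := hspanv i x hx
  exact ⟨d 0, d 1, d 2, d 3, by rw [Fin.sum_univ_four]⟩

end Cfsg.Agent.H886
end
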