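import Cfsg.Agent.H886.Rigid
import Cfsg.Agent.H886.Decomp
import Cfsg.Agent.H886.NotMax
set_option linter.all false

-- part: H886/Plane
section
/-!
Anisotropic planes of a quadratic space over a finite field.
-/

set_option autoImplicit false

namespace Cfsg.Agent.H886.Plane

open QuadraticMap Cfsg.Agent.LieClassical.OrthCore Cfsg.Agent.LieClassical.OrthTrans
  Cfsg.Agent.LieClassical.OrthFinite Cfsg.Agent.LieClassical.OrthSimple Cfsg.Agent.H883.Bridge
  Cfsg.Agent.H883.Root Cfsg.Agent.H883.Sub Cfsg.Agent.H886.Decomp Cfsg.Agent.H886.Rigid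

variable {F V : Type*} [Field F] [AddCommGroup V] [Module F V] {Q : QuadraticForm F V}
  {W W' : Submodule F V}

/-- `W` is a nondegenerate anisotropic plane. -/
structure AP (Q : QuadraticForm F V) (W : Submodule F V) : Prop where
  rank : Module.finrank F W = 2
  nd : NondegOn Q W
  aniso : ∀ x ∈ W, Q x = 0 → x = 0

/-- The data attached to a nonzero vector `x` of an anisotropic plane: `a ⊥ x`, `b` not orthogonal to
`x`. -/
structure Fr (Q : QuadraticForm F V) (W : Submodule F V) (x a b : V) : Prop where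
  ha : a ∈ W
  hb : b ∈ W
  ha0 : a ≠ 0
  hax : polar Q a x = 0
  hbx : polar Q b x ≠ 0
  span : ∀ y ∈ W, ∃ l m : F, y = l • a + m • b

namespace AP

theorem ne (h : AP Q W) {x : V} (hx : x ∈ W) (hx0 : x ≠ 0) : Q x ≠ 0 := fun h1 => hx0 (h.aniso x hx h1)

theorem exists_fr (h : AP Q W) {x : V} (hx : x ∈ W) (hx0 : x ≠ 0) : ∃ a b, Fr Q W x a b := by
  have hfd : FiniteDimensional F W := Module.finite_of_finrank_pos (by rw [h.rank]; omega)
  obtain ⟨b, hb, hbx⟩ : ∃ b ∈ W, polar Q b x ≠ 0 := by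
    by_contra hc
    push Not at hc
    exact hx0 (h.nd x hx fun y hy => by rw [polar_comm]; exact hc y hy)
  obtain ⟨a, ha0, ha⟩ := exists_perp_ne (Q := res Q W) ![(⟨x, hx⟩ : W)] (by rw [h.rank]; omega)
  have hax : polar Q (a : V) x = 0 := by
    have := ha 0
    rw [polar_comm]
    exact this
  have ha0' : (a : V) ≠ 0 := fun h1 => ha0 (Subtype.ext h1)
  refine ⟨a, b, a.2, hb, ha0', hax, hbx, ?_⟩
  have hli : LinearIndependent F ![(a : W), (⟨b, hb⟩ : W)] := by
    rw [LinearIndependent.pair_iff]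
    intro s t hst
    have h1 : s • (a : V) + t • b = 0 := congrArg Subtype.val hst
    have h2 : polar Q (s • (a : V) + t • b) x = 0 := by rw [h1, polar_zero_left]
    rw [polar_add_left, polar_smul_left, polar_smul_left, hax, smul_zero, zero_add, smul_eq_mul] at h2
    have ht : t = 0 := (mul_eq_zero.1 h2).resolve_right hbx
    subst ht
    rw [zero_smul, add_zero] at h1
    exact ⟨(smul_eq_zero.1 h1).resolve_right ha0', rfl⟩
  have hspan := hli.span_eq_top_of_card_eq_finrank (by rw [h.rank]; rfl)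
  intro y hy
  have hy' : (⟨y, hy⟩ : W) ∈ Submodule.span F (Set.range ![(a : W), (⟨b, hb⟩ : W)]) := by
    rw [hspan]; exact Submodule.mem_top
  rw [Matrix.range_cons, Matrix.range_cons, Matrix.range_empty, Set.union_empty,
    Set.singleton_union, Submodule.mem_span_pair] at hy'
  obtain ⟨l, m, hlm⟩ := hy'
  exact ⟨l, m, (congrArg Subtype.val hlm).symm⟩

end AP

namespace Fr

variable {x a b : V}

/-- Vectors orthogonal to `x` are multiples of `a`. -/
theorem eq_smul (h : Fr Q W x a b) {y : V} (hy : y ∈ W) (hyx : polar Q y x = 0) :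
    ∃ l : F, y = l • a := by
  obtain ⟨l, m, rfl⟩ := h.span y hy
  rw [polar_add_left, polar_smul_left, polar_smul_left, h.hax, smul_zero, zero_add, smul_eq_mul] at hyx
  have hm := (mul_eq_zero.1 hyx).resolve_right h.hbx
  exact ⟨l, by rw [hm, zero_smul, add_zero]⟩

theorem line_mem (h : Fr Q W x a b) (l : F) : b + l • a ∈ W := W.add_mem h.hb (W.smul_mem _ h.ha)

theorem line_polar (h : Fr Q W x a b) (l : F) : polar Q (b + l • a) x = polar Q b x := by
  rw [polar_add_left, polar_smul_left, h.hax, smul_zero, add_zero]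

theorem line_ne (h : Fr Q W x a b) (l : F) : b + l • a ≠ 0 := by
  intro h1
  have h2 := h.line_polar l
  rw [h1, polar_zero_left] at h2
  exact h.hbx h2.symm

theorem line_Q (h : Fr Q W x a b) (hW : AP Q W) (l : F) : Q (b + l • a) ≠ 0 :=
  hW.ne (h.line_mem l) (h.line_ne l)

/-- The points of the sphere through `x`. -/
noncomputable def pt (_ : Fr Q W x a b) (l : Option F) : V :=
  match l with
  | none => x
  | some l => x - ((Q (b + l • a))⁻¹ * polar Q b x) • (b + l • a)

theorem pt_some (h : Fr Q W x a b) (hW : AP Q W) (l : F) :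
    h.pt (some l) = refl Q (b + l • a) (h.line_Q hW l) x := by
  rw [refl_apply, h.line_polar]
  rfl

theorem pt_mem (h : Fr Q W x a b) (hx : x ∈ W) (o : Option F) : h.pt o ∈ W := by
  cases o with
  | none => exact hx
  | some l => exact W.sub_mem hx (W.smul_mem _ (h.line_mem l))

theorem pt_Q (h : Fr Q W x a b) (hW : AP Q W) (o : Option F) : Q (h.pt o) = Q x := by
  cases o with
  | none => rfl
  | some l => rw [h.pt_some hW]; exact mem_O.1 (refl_mem_O _) x

theorem pt_injective (h : Fr Q W x a b) (hW : AP Q W) : Function.Injective h.pt := by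
  have hcoef : ∀ l : F, (Q (b + l • a))⁻¹ * polar Q b x ≠ 0 := fun l =>
    mul_ne_zero (inv_ne_zero (h.line_Q hW l)) h.hbx
  have hne : ∀ l : F, h.pt (some l) ≠ x := by
    intro l h1
    have h2 : ((Q (b + l • a))⁻¹ * polar Q b x) • (b + l • a) = 0 := by
      have h3 : x - ((Q (b + l • a))⁻¹ * polar Q b x) • (b + l • a) = x := h1
      rwa [sub_eq_self] at h3
    rcases smul_eq_zero.1 h2 with h3 | h3
    · exact hcoef l h3
    · exact h.line_ne l h3
  intro o o' hoo
  cases o with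
  | none =>
    cases o' with
    | none => rfl
    | some l => exact absurd hoo.symm (hne l)
  | some l =>
    cases o' with
    | none => exact absurd hoo (hne l)
    | some m =>
      have h1 : x - ((Q (b + l • a))⁻¹ * polar Q b x) • (b + l • a) =
        x - ((Q (b + m • a))⁻¹ * polar Q b x) • (b + m • a) := hoo
      have h2 := sub_right_injective h1
      set c := (Q (b + l • a))⁻¹ * polar Q b x with hc
      set d := (Q (b + m • a))⁻¹ * polar Q b x with hd
      have h3 : polar Q (c • (b + l • a)) x = polar Q (d • (b + m • a)) x := by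
        rw [h2]
      rw [polar_smul_left, polar_smul_left, h.line_polar, h.line_polar, smul_eq_mul,
        smul_eq_mul] at h3
      have h4 : c = d := mul_right_cancel₀ h.hbx h3
      rw [← h4] at h2
      have h5 : b + l • a = b + m • a := smul_right_injective V (hcoef l) h2
      have h6 : (l - m) • a = 0 := by
        rw [sub_smul, sub_eq_zero]
        exact add_left_cancel h5
      have h7 := (smul_eq_zero.1 h6).resolve_right h.ha0
      rw [sub_eq_zero] at h7
      rw [h7]

end Fr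

/-- A finite field with `2 ≠ 0` and not of order three has at least five elements. -/
theorem five_le_card [Finite F] (h2 : (2 : F) ≠ 0) (hq : Nat.card F ≠ 3) : 5 ≤ Nat.card F := by
  have := Fintype.ofFinite F
  have h1 : ringChar F ≠ 2 := by
    intro h
    apply h2
    have := ringChar.spec F 2
    have h3 : ((2 : ℕ) : F) = 0 := this.2 (by rw [h])
    exact_mod_cast h3
  have h3 := FiniteField.odd_card_of_char_ne_two h1
  rw [← Nat.card_eq_fintype_card] at h3
  have h4 : 1 < Nat.card F := by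
    rw [Nat.card_eq_fintype_card]
    exact Fintype.one_lt_card
  omega

namespace AP

theorem exists_avoid [Finite F] (hW : AP Q W) {x : V} (hx : x ∈ W) (hx0 : x ≠ 0) (Bad : Finset V)
    (hBad : Bad.card ≤ Nat.card F) : ∃ y ∈ W, Q y = Q x ∧ y ∉ Bad := by
  classical
  have := Fintype.ofFinite F
  obtain ⟨a, b, h⟩ := hW.exists_fr hx hx0
  have hcard : (Finset.univ.image h.pt).card = Nat.card F + 1 := by
    rw [Finset.card_image_of_injective _ (h.pt_injective hW), Finset.card_univ, Fintype.card_option,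
      Nat.card_eq_fintype_card]
  obtain ⟨y, hy, hyB⟩ := Finset.exists_mem_notMem_of_card_lt_card (s := Bad)
    (t := Finset.univ.image h.pt) (by omega)
  obtain ⟨o, -, rfl⟩ := Finset.mem_image.1 hy
  exact ⟨_, h.pt_mem hx o, h.pt_Q hW o, hyB⟩

/-- Two vectors of the same norm orthogonal to a common nonzero vector. -/
theorem eq_or_neg (hW : AP Q W) {e y y' : V} (he : e ∈ W) (he0 : e ≠ 0) (hy : y ∈ W) (hy' : y' ∈ W)
    (h1 : polar Q e y = 0) (h2 : polar Q e y' = 0) (hQ : Q y' = Q y) : y' = y ∨ y' = -y := by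
  obtain ⟨a, b, h⟩ := hW.exists_fr he he0
  obtain ⟨l, rfl⟩ := h.eq_smul hy (by rw [polar_comm]; exact h1)
  obtain ⟨m, rfl⟩ := h.eq_smul hy' (by rw [polar_comm]; exact h2)
  rw [QuadraticMap.map_smul, QuadraticMap.map_smul, smul_eq_mul, smul_eq_mul] at hQ
  have h3 := mul_right_cancel₀ (hW.ne h.ha h.ha0) hQ
  rcases mul_self_eq_mul_self_iff.1 h3 with h4 | h4
  · left; rw [h4]
  · right; rw [h4, neg_smul]

theorem exists_bad (hW : AP Q W) {e : V} (he : e ∈ W) (he0 : e ≠ 0) (v : F) :
    ∃ Bad : Finset V, Bad.card ≤ 2 ∧ ((2 : F) = 0 → Bad.card ≤ 1) ∧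
      ∀ y ∈ W, Q y = v → y ∉ Bad → polar Q e y ≠ 0 := by
  classical
  by_cases hex : ∃ y ∈ W, Q y = v ∧ polar Q e y = 0
  · obtain ⟨y, hy, hQy, hey⟩ := hex
    refine ⟨{y, -y}, Finset.card_le_two, ?_, ?_⟩
    · intro h2
      have : -y = y := by
        rw [neg_eq_iff_add_eq_zero, ← two_smul F y, h2, zero_smul]
      rw [this]
      simp
    · intro z hz hQz hzB h0
      rcases hW.eq_or_neg he he0 hy hz hey h0 (hQz.trans hQy.symm) with h1 | h1
      · exact hzB (by rw [h1]; simp)
      · exact hzB (by rw [h1]; simp)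
  · push Not at hex
    exact ⟨∅, by simp, by simp, fun y hy hQ _ => hex y hy hQ⟩

/-- For `|F| ≠ 3` the sphere through `x` contains a vector not orthogonal to two given vectors. -/
theorem exists_nonorth [Finite F] (hq : Nat.card F ≠ 3) (hW : AP Q W) {x : V} (hx : x ∈ W)
    (hx0 : x ≠ 0) {e e' : V} (he : e ∈ W) (he0 : e ≠ 0) (he' : e' ∈ W) (he0' : e' ≠ 0) :
    ∃ y ∈ W, Q y = Q x ∧ polar Q e y ≠ 0 ∧ polar Q e' y ≠ 0 := by
  classical
  obtain ⟨B, hB2, hB1, hB⟩ := hW.exists_bad he he0 (Q x)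
  obtain ⟨B', hB2', hB1', hB'⟩ := hW.exists_bad he' he0' (Q x)
  have hcard : (B ∪ B').card ≤ Nat.card F := by
    have h1 := Finset.card_union_le B B'
    by_cases h2 : (2 : F) = 0
    · have h3 := hB1 h2
      have h4 := hB1' h2
      have h5 : 1 < Nat.card F := Finite.one_lt_card
      omega
    · have := five_le_card h2 hq
      omega
  obtain ⟨y, hy, hQy, hyB⟩ := hW.exists_avoid hx hx0 _ hcard
  rw [Finset.mem_union, not_or] at hyB
  exact ⟨y, hy, hQy, hB y hy hQy hyB.1, hB' y hy hQy hyB.2⟩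

/-- Same, and the new vector is not a multiple of `x`. -/
theorem exists_pair [Finite F] (hq : Nat.card F ≠ 3) (hW : AP Q W) {x : V} (hx : x ∈ W)
    (hx0 : x ≠ 0) : ∃ y ∈ W, Q y = Q x ∧ polar Q x y ≠ 0 ∧ ∀ c : F, y ≠ c • x := by
  obtain ⟨a, b, h⟩ := hW.exists_fr hx hx0
  obtain ⟨y, hy, hQy, h1, h2⟩ := hW.exists_nonorth hq hx hx0 hx hx0 h.ha h.ha0
  refine ⟨y, hy, hQy, h1, ?_⟩
  rintro c rfl
  apply h2
  rw [polar_smul_right, h.hax, smul_zero]

theorem conn [Finite F] (hq : Nat.card F ≠ 3) (hW : AP Q W) {x : V} (hx : x ∈ W) (hx0 : x ≠ 0) :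
    Conn Q W (Q x) := by
  refine ⟨{y | y ∈ W ∧ Q y = Q x}, ⟨x, hx, rfl⟩, fun b hb => hb, ?_, ?_⟩
  · obtain ⟨y, hy, hQy, -, hyx⟩ := hW.exists_pair hq hx hx0
    have hfd : FiniteDimensional F W := Module.finite_of_finrank_pos (by rw [hW.rank]; omega)
    have hli : LinearIndependent F ![(⟨x, hx⟩ : W), (⟨y, hy⟩ : W)] := by
      rw [LinearIndependent.pair_iff' (fun h => hx0 (congrArg Subtype.val h))]
      intro c hc
      exact hyx c (congrArg Subtype.val hc).symm
    have hspan := hli.span_eq_top_of_card_eq_finrank (by rw [hW.rank]; rfl)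
    intro z hz
    have hz' : (⟨z, hz⟩ : W) ∈ Submodule.span F (Set.range ![(⟨x, hx⟩ : W), (⟨y, hy⟩ : W)]) := by
      rw [hspan]; exact Submodule.mem_top
    rw [Matrix.range_cons, Matrix.range_cons, Matrix.range_empty, Set.union_empty,
      Set.singleton_union, Submodule.mem_span_pair] at hz'
    obtain ⟨l, m, hlm⟩ := hz'
    have e : z = l • x + m • y := (congrArg Subtype.val hlm).symm
    rw [e]
    exact Submodule.add_mem _ (Submodule.smul_mem _ _ (Submodule.subset_span ⟨hx, rfl⟩))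
      (Submodule.smul_mem _ _ (Submodule.subset_span ⟨hy, hQy⟩))
  · rintro b ⟨hb, hQb⟩ c ⟨hc, hQc⟩
    have hQx := hW.ne hx hx0
    have hb0 : b ≠ 0 := by
      rintro rfl
      rw [QuadraticMap.map_zero] at hQb
      exact hQx hQb.symm
    have hc0 : c ≠ 0 := by
      rintro rfl
      rw [QuadraticMap.map_zero] at hQc
      exact hQx hQc.symm
    obtain ⟨y, hy, hQy, h1, h2⟩ := hW.exists_nonorth hq hx hx0 hb hb0 hc hc0
    exact ⟨y, ⟨hy, hQy⟩, h1, by rw [polar_comm]; exact h2⟩

/-- Anisotropic planes over finite fields represent everything. -/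
theorem exists_value [Finite F] (hW : AP Q W) (v : F) (hv : v ≠ 0) : ∃ y ∈ W, y ≠ 0 ∧ Q y = v := by
  have hne : W ≠ ⊥ := by
    intro h
    have := hW.rank
    rw [h, finrank_bot] at this
    omega
  obtain ⟨x, hx, hx0⟩ := Submodule.exists_mem_ne_zero_of_ne_bot hne
  obtain ⟨a, b, h⟩ := hW.exists_fr hx hx0
  obtain ⟨c, hc0, hc⟩ := exists_ternary_zero (Q a) (Q b) (-v) (polar Q a b) 0 0
  have h1 : Q (c 0 • a + c 1 • b) = v * c 2 ^ 2 := by
    rw [Q_add, QuadraticMap.map_smul, QuadraticMap.map_smul, polar_smul_left, polar_smul_right]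
    simp only [smul_eq_mul]
    linear_combination hc
  have hmem : c 0 • a + c 1 • b ∈ W := W.add_mem (W.smul_mem _ h.ha) (W.smul_mem _ h.hb)
  have hc2 : c 2 ≠ 0 := by
    intro h2
    rw [h2] at h1
    have h3 := hW.aniso _ hmem (by rw [h1]; ring)
    have h4 : polar Q (c 0 • a + c 1 • b) x = 0 := by rw [h3, polar_zero_left]
    rw [polar_add_left, polar_smul_left, polar_smul_left, h.hax, smul_zero, zero_add,
      smul_eq_mul] at h4
    have h5 := (mul_eq_zero.1 h4).resolve_right h.hbx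
    rw [h5, zero_smul, add_zero] at h3
    have h6 := (smul_eq_zero.1 h3).resolve_right h.ha0
    apply hc0
    ext i
    fin_cases i
    · exact h6
    · exact h5
    · exact h2
  refine ⟨(c 2)⁻¹ • (c 0 • a + c 1 • b), W.smul_mem _ hmem, ?_, ?_⟩
  · intro h0
    have h2 := (smul_eq_zero.1 h0).resolve_left (inv_ne_zero hc2)
    rw [h2, QuadraticMap.map_zero] at h1
    exact mul_ne_zero hv (pow_ne_zero 2 hc2) h1.symm
  · rw [QuadraticMap.map_smul, h1, smul_eq_mul]
    field_simp

/-- Vectors of the same norm with the same product with `z`. -/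
theorem eq_or_refl (hW : AP Q W) {z : V} {a b : V} (h : Fr Q W z a b) {y y' : V} (hy : y ∈ W)
    (hy' : y' ∈ W) (hQ : Q y' = Q y) (hz : polar Q z y' = polar Q z y) :
    y' = y ∨ y' = refl Q a (hW.ne h.ha h.ha0) y := by
  obtain ⟨l, hl⟩ := h.eq_smul (W.sub_mem hy' hy) (by
    rw [polar_sub_left, polar_comm Q y', polar_comm Q y, hz, sub_self])
  have e : y' = y + l • a := by rw [← hl]; abel
  have hQa := hW.ne h.ha h.ha0
  rw [e, Q_add, QuadraticMap.map_smul, polar_smul_right, smul_eq_mul, smul_eq_mul] at hQ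
  have h1 : l * (l * Q a + polar Q y a) = 0 := by linear_combination hQ
  rcases mul_eq_zero.1 h1 with h2 | h2
  · left
    rw [e, h2, zero_smul, add_zero]
  · right
    rw [e, refl_apply, sub_eq_add_neg, ← neg_smul]
    congr 2
    rw [polar_comm Q a y]
    field_simp
    linear_combination h2

/-- **An additive group containing a nonzero vector of an anisotropic plane and closed under the
reflections of the plane contains the plane.** -/
theorem mem_of_closed [Finite F] (hW : AP Q W) (A : AddSubgroup V)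
    (hA : ∀ c ∈ W, ∀ hc : Q c ≠ 0, ∀ y ∈ A, y ∈ W → refl Q c hc y ∈ A) {w : V} (hwA : w ∈ A)
    (hw : w ∈ W) (hw0 : w ≠ 0) {z : V} (hz : z ∈ W) : z ∈ A := by
  classical
  have := Fintype.ofFinite F
  by_cases hz0 : z = 0
  · rw [hz0]; exact A.zero_mem
  obtain ⟨a, b, h⟩ := hW.exists_fr hw hw0
  obtain ⟨a', b', h'⟩ := hW.exists_fr hz hz0
  have hptA : ∀ o, h.pt o ∈ A := by
    intro o
    cases o with
    | none => exact hwA
    | some l =>
      rw [h.pt_some hW]
      exact hA _ (h.line_mem l) _ w hwA hw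
  have hQz := hW.ne hz hz0
  let μ : Option F → F := fun o => (Q z)⁻¹ * polar Q z (h.pt o)
  let K : AddSubgroup F := A.comap ((LinearMap.toSpanSingleton F V z).toAddMonoidHom)
  have hK : ∀ c, c ∈ K ↔ c • z ∈ A := fun c => Iff.rfl
  have hμK : ∀ o, μ o ∈ K := by
    intro o
    rw [hK]
    have h1 := A.sub_mem (hptA o) (hA z hz hQz _ (hptA o) (h.pt_mem hw o))
    rw [refl_apply, sub_sub_cancel] at h1
    exact h1
  have hcard := Finset.card_le_mul_card_image (f := μ) (Finset.univ : Finset (Option F)) 2 (by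
    intro v hv
    obtain ⟨o, -, rfl⟩ := Finset.mem_image.1 hv
    have h2 : ((Finset.univ.filter (fun o' => μ o' = μ o)).image h.pt).card ≤ 2 := by
      refine le_trans (Finset.card_le_card (t := {h.pt o, refl Q a' (hW.ne h'.ha h'.ha0) (h.pt o)}) ?_)
        Finset.card_le_two
      intro y hy
      obtain ⟨o', ho', rfl⟩ := Finset.mem_image.1 hy
      have h3 : μ o' = μ o := (Finset.mem_filter.1 ho').2
      have h4 : polar Q z (h.pt o') = polar Q z (h.pt o) := mul_left_cancel₀ (inv_ne_zero hQz) h3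
      rcases hW.eq_or_refl h' (h.pt_mem hw o) (h.pt_mem hw o')
        ((h.pt_Q hW o').trans (h.pt_Q hW o).symm) h4 with h5 | h5
      · rw [h5]; simp
      · rw [h5]; simp
    rwa [Finset.card_image_of_injective _ (h.pt_injective hW)] at h2)
  rw [Finset.card_univ, Fintype.card_option] at hcard
  have h5 : (Finset.univ.image μ).card ≤ Nat.card K := by
    have h5' : Nat.card K = ((K : Set F).toFinset).card := Nat.card_eq_card_toFinset _
    rw [h5']
    refine Finset.card_le_card ?_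
    intro c hc
    obtain ⟨o, -, rfl⟩ := Finset.mem_image.1 hc
    rw [Set.mem_toFinset]
    exact hμK o
  have h6 := K.card_mul_index
  rw [Nat.card_eq_fintype_card (α := F)] at h6
  have h7 : K.index = 1 := by
    have h8 : 0 < Fintype.card F := Fintype.card_pos
    have h9 : K.index ≠ 0 := by
      intro h10
      rw [h10, mul_zero] at h6
      omega
    by_contra h10
    have h11 : 2 ≤ K.index := by omega
    have h12 : Nat.card K * 2 ≤ Nat.card K * K.index := Nat.mul_le_mul_left _ h11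
    omega
  have h8 : (1 : F) ∈ K := by
    rw [AddSubgroup.index_eq_one.1 h7]
    trivial
  rwa [hK, one_smul] at h8

end AP

/-- The values of a quadratic polynomial function. -/
theorem card_image_quad [Fintype F] [DecidableEq F] (p0 p1 p2 : F) (h2 : p2 ≠ 0) :
    Fintype.card F ≤ 2 * (Finset.univ.image fun l : F => p0 + p1 * l + p2 * l ^ 2).card := by
  have := Finset.card_le_mul_card_image (f := fun l : F => p0 + p1 * l + p2 * l ^ 2)
    (Finset.univ : Finset F) 2 (by
    intro v hv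
    obtain ⟨l, -, rfl⟩ := Finset.mem_image.1 hv
    refine le_trans (Finset.card_le_card (t := {l, -(p1 / p2) - l}) ?_) Finset.card_le_two
    intro m hm
    have h3 : p0 + p1 * m + p2 * m ^ 2 = p0 + p1 * l + p2 * l ^ 2 := (Finset.mem_filter.1 hm).2
    have h4 : (m - l) * (p1 + p2 * (m + l)) = 0 := by linear_combination h3
    rcases mul_eq_zero.1 h4 with h5 | h5
    · rw [sub_eq_zero.1 h5]; simp
    · have h6 : m = -(p1 / p2) - l := by
        field_simp
        linear_combination h5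
      rw [h6]; simp)
  rwa [Finset.card_univ] at this

/-- Two quadratic polynomial functions without zeros take opposite values. -/
theorem exists_quad_add_eq_zero [Finite F] (p0 p1 p2 r0 r1 r2 : F) (hp2 : p2 ≠ 0) (hr2 : r2 ≠ 0)
    (hp : ∀ l : F, p0 + p1 * l + p2 * l ^ 2 ≠ 0) (hr : ∀ l : F, r0 + r1 * l + r2 * l ^ 2 ≠ 0) :
    ∃ l m : F, (p0 + p1 * l + p2 * l ^ 2) + (r0 + r1 * m + r2 * m ^ 2) = 0 := by
  classical
  have := Fintype.ofFinite F
  by_contra hc
  push Not at hc
  set A := Finset.univ.image fun l : F => p0 + p1 * l + p2 * l ^ 2 with hA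
  set B := Finset.univ.image fun l : F => -r0 + -r1 * l + -r2 * l ^ 2 with hB
  have h1 := card_image_quad p0 p1 p2 hp2
  have h2 := card_image_quad (-r0) (-r1) (-r2) (neg_ne_zero.2 hr2)
  rw [← hA] at h1
  rw [← hB] at h2
  have hdisj : Disjoint A B := by
    rw [Finset.disjoint_left]
    intro x hx hx'
    obtain ⟨l, -, rfl⟩ := Finset.mem_image.1 hx
    obtain ⟨m, -, hm⟩ := Finset.mem_image.1 hx'
    apply hc l m
    linear_combination -hm
  have h3 : A ∪ B ⊆ Finset.univ.erase 0 := by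
    intro x hx
    rw [Finset.mem_erase]
    refine ⟨?_, Finset.mem_univ _⟩
    rcases Finset.mem_union.1 hx with h | h
    · obtain ⟨l, -, rfl⟩ := Finset.mem_image.1 h
      exact hp l
    · obtain ⟨l, -, rfl⟩ := Finset.mem_image.1 h
      intro h0
      apply hr l
      linear_combination -h0
  have h4 := Finset.card_le_card h3
  rw [Finset.card_union_of_disjoint hdisj, Finset.card_erase_of_mem (Finset.mem_univ _),
    Finset.card_univ] at h4
  have h5 : 0 < Fintype.card F := Fintype.card_pos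
  omega

/-- **The pair lemma**: two anisotropic planes, nonzero vectors `x ∈ W`, `x' ∈ W'`: there are `c ∈ W` and
`c' ∈ W'` with `r_c x = x - c`, `r_{c'} x' = x' - c'` and `Q c + Q c' = 0`. -/
theorem exists_pair_sing [Finite F] (hW : AP Q W) (hW' : AP Q W') {x x' : V} (hx : x ∈ W)
    (hx0 : x ≠ 0) (hx' : x' ∈ W') (hx0' : x' ≠ 0) :
    ∃ c ∈ W, ∃ c' ∈ W', Q c ≠ 0 ∧ Q c' ≠ 0 ∧ polar Q c x = Q c ∧ polar Q c' x' = Q c' ∧
      Q c + Q c' = 0 := by
  obtain ⟨a, b, h⟩ := hW.exists_fr hx hx0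
  obtain ⟨a', b', h'⟩ := hW'.exists_fr hx' hx0'
  set β := polar Q b x with hβ
  set β' := polar Q b' x' with hβ'
  have hβ0 : β ≠ 0 := h.hbx
  have hβ0' : β' ≠ 0 := h'.hbx
  have hline : ∀ (a b : V) (l : F), Q (b + l • a) = Q b + polar Q b a * l + Q a * l ^ 2 := by
    intro a b l
    rw [Q_add, QuadraticMap.map_smul, polar_smul_right, smul_eq_mul, smul_eq_mul]
    ring
  obtain ⟨l, m, hlm⟩ := exists_quad_add_eq_zero (β' ^ 2 * Q b) (β' ^ 2 * polar Q b a)
    (β' ^ 2 * Q a) (β ^ 2 * Q b') (β ^ 2 * polar Q b' a') (β ^ 2 * Q a')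
    (mul_ne_zero (pow_ne_zero 2 hβ0') (hW.ne h.ha h.ha0))
    (mul_ne_zero (pow_ne_zero 2 hβ0) (hW'.ne h'.ha h'.ha0))
    (fun l => by
      have e : β' ^ 2 * Q b + β' ^ 2 * polar Q b a * l + β' ^ 2 * Q a * l ^ 2 =
        β' ^ 2 * Q (b + l • a) := by rw [hline]; ring
      rw [e]
      exact mul_ne_zero (pow_ne_zero 2 hβ0') (h.line_Q hW l))
    (fun l => by
      have e : β ^ 2 * Q b' + β ^ 2 * polar Q b' a' * l + β ^ 2 * Q a' * l ^ 2 =
        β ^ 2 * Q (b' + l • a') := by rw [hline]; ring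
      rw [e]
      exact mul_ne_zero (pow_ne_zero 2 hβ0) (h'.line_Q hW' l))
  have e : β' ^ 2 * Q (b + l • a) + β ^ 2 * Q (b' + m • a') = 0 := by
    rw [hline, hline]
    linear_combination hlm
  have hN := h.line_Q hW l
  have hN' := h'.line_Q hW' m
  have hP := h.line_polar l
  have hP' := h'.line_polar m
  have hm := h.line_mem l
  have hm' := h'.line_mem m
  set y := b + l • a with hy
  set y' := b' + m • a' with hy'
  have hs : β * (Q y)⁻¹ ≠ 0 := mul_ne_zero hβ0 (inv_ne_zero hN)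
  have hs' : β' * (Q y')⁻¹ ≠ 0 := mul_ne_zero hβ0' (inv_ne_zero hN')
  refine ⟨(β * (Q y)⁻¹) • y, W.smul_mem _ hm, (β' * (Q y')⁻¹) • y', W'.smul_mem _ hm', ?_, ?_, ?_, ?_,
    ?_⟩
  · rw [QuadraticMap.map_smul, smul_eq_mul]
    exact mul_ne_zero (mul_ne_zero hs hs) hN
  · rw [QuadraticMap.map_smul, smul_eq_mul]
    exact mul_ne_zero (mul_ne_zero hs' hs') hN'
  · rw [QuadraticMap.map_smul, polar_smul_left, hP, ← hβ, smul_eq_mul, smul_eq_mul]
    field_simp
  · rw [QuadraticMap.map_smul, polar_smul_left, hP', ← hβ', smul_eq_mul, smul_eq_mul]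
    field_simp
  · rw [QuadraticMap.map_smul, QuadraticMap.map_smul, smul_eq_mul, smul_eq_mul]
    field_simp
    linear_combination e

end Cfsg.Agent.H886.Plane
end

-- part: H886/PlaneRigid
section
/-!
Rigid overgroups of the stabiliser of an orthogonal decomposition into anisotropic planes
(`|F| ≠ 3`, at least three members): they stabilise the decomposition.
-/

set_option autoImplicit false

namespace Cfsg.Agent.H886.PlaneRigid

open QuadraticMap Cfsg.Agent.LieClassical.OrthCore Cfsg.Agent.LieClassical.OrthTrans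
  Cfsg.Agent.LieClassical.OrthFinite Cfsg.Agent.LieClassical.OrthSimple Cfsg.Agent.H883.Bridge
  Cfsg.Agent.H883.Root Cfsg.Agent.H883.Sub Cfsg.Agent.H886.Decomp Cfsg.Agent.H886.Rigid
  Cfsg.Agent.H886.Plane

section Squares

variable {F : Type*} [Field F]

/-- In a finite field the product of two non-squares is a square. -/
theorem isSquare_mul_of_not [Finite F] {a b : F} (ha : ¬ IsSquare a) (hb : ¬ IsSquare b) :
    IsSquare (a * b) := by
  classical
  have := Fintype.ofFinite F
  by_cases h0 : a * b = 0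
  · rw [h0]
    exact IsSquare.zero
  · rw [← quadraticChar_neg_one_iff_not_isSquare] at ha hb
    rw [← quadraticChar_one_iff_isSquare h0, map_mul, ha, hb]
    norm_num

/-- Two nonzero elements with a square product differ by a nonzero square factor. -/
theorem exists_factor {a b : F} (ha : a ≠ 0) (hb : b ≠ 0) (h : IsSquare (a * b)) :
    ∃ c : F, c ≠ 0 ∧ b = c * c * a := by
  obtain ⟨r, hr⟩ := h
  have hr0 : r ≠ 0 := by
    rintro rfl
    rw [mul_zero] at hr
    exact mul_ne_zero ha hb hr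
  refine ⟨r * a⁻¹, mul_ne_zero hr0 (inv_ne_zero ha), ?_⟩
  field_simp
  linear_combination hr

/-- Among three nonzero elements of a finite field two differ by a square factor. -/
theorem exists_same_class [Finite F] {t : ℕ} (ht : 3 ≤ t) (n : Fin t → F) (hn : ∀ i, n i ≠ 0) :
    ∃ i j l : Fin t, i ≠ j ∧ l ≠ i ∧ l ≠ j ∧ ∃ c : F, c ≠ 0 ∧ n j = c * c * n i := by
  let i0 : Fin t := ⟨0, by omega⟩
  let i1 : Fin t := ⟨1, by omega⟩
  let i2 : Fin t := ⟨2, by omega⟩
  have h01 : i0 ≠ i1 := by simp [i0, i1, Fin.ext_iff]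
  have h02 : i0 ≠ i2 := by simp [i0, i2, Fin.ext_iff]
  have h12 : i1 ≠ i2 := by simp [i1, i2, Fin.ext_iff]
  by_cases hA : IsSquare (n i0 * n i1)
  · exact ⟨i0, i1, i2, h01, h02.symm, h12.symm, exists_factor (hn _) (hn _) hA⟩
  by_cases hB : IsSquare (n i1 * n i2)
  · exact ⟨i1, i2, i0, h12, h01, h02, exists_factor (hn _) (hn _) hB⟩
  have h3 := isSquare_mul_of_not hA hB
  refine ⟨i0, i2, i1, h02, h01.symm, h12, exists_factor (hn _) (hn _) ?_⟩
  obtain ⟨r, hr⟩ := h3
  refine ⟨r * (n i1)⁻¹, ?_⟩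
  have := hn i1
  field_simp
  linear_combination hr

end Squares

variable {F V : Type*} [Field F] [AddCommGroup V] [Module F V] {Q : QuadraticForm F V} {t : ℕ}
  {D D' : Fin t → Submodule F V} {p p' : Fin t → V →ₗ[F] V} {M : Subgroup (V ≃ₗ[F] V)}

/-- The product of two reflections in vectors of the same norm, neither orthogonal nor proportional, is not
an involution. -/
theorem not_involution {w y : V} (hw : Q w ≠ 0) (hy : Q y ≠ 0) (hQ : Q y = Q w)
    (hwy : polar Q w y ≠ 0) (hind : ∀ c : F, y ≠ c • w) :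
    (refl Q w hw * refl Q y hy) ((refl Q w hw * refl Q y hy) w) ≠ w := by
  set κ := (Q w)⁻¹ * polar Q w y with hκ
  have hκ0 : κ ≠ 0 := mul_ne_zero (inv_ne_zero hw) hwy
  have e1 : refl Q y hy w = w - κ • y := by
    rw [refl_apply, hQ, polar_comm Q y w]
  have e2 : refl Q w hw w = -w := by
    rw [refl_apply, polar_self']
    have : (Q w)⁻¹ * (2 * Q w) = 2 := by field_simp
    rw [this, two_smul]
    abel
  have e3 : refl Q w hw y = y - κ • w := by rw [refl_apply]
  have e4 : refl Q y hy y = -y := by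
    rw [refl_apply, polar_self']
    have : (Q y)⁻¹ * (2 * Q y) = 2 := by field_simp
    rw [this, two_smul]
    abel
  have f1 : (refl Q w hw * refl Q y hy) w = (κ * κ - 1) • w - κ • y := by
    show refl Q w hw (refl Q y hy w) = _
    rw [e1, map_sub, map_smul, e2, e3]
    module
  have f2 : (refl Q w hw * refl Q y hy) y = κ • w - y := by
    show refl Q w hw (refl Q y hy y) = _
    rw [e4, map_neg, e3]
    module
  rw [f1, map_sub, map_smul, map_smul, f1, f2]
  intro h
  have h1 : (κ * (2 - κ * κ)) • y = (1 + κ * κ - (κ * κ - 1) * (κ * κ - 1)) • w := by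
    have : (κ * (2 - κ * κ)) • y = ((κ * κ - 1) • ((κ * κ - 1) • w - κ • y) - κ • (κ • w - y)) +
      (κ * κ - (κ * κ - 1) * (κ * κ - 1)) • w := by module
    rw [this, h]
    module
  have h2 : κ * (2 - κ * κ) = 0 := by
    by_contra h0
    apply hind ((κ * (2 - κ * κ))⁻¹ * (1 + κ * κ - (κ * κ - 1) * (κ * κ - 1)))
    rw [mul_smul, ← h1, smul_smul, inv_mul_cancel₀ h0, one_smul]
  have h3 : 2 - κ * κ = 0 := (mul_eq_zero.1 h2).resolve_left hκ0
  rw [h2, zero_smul] at h1
  have hw0 : w ≠ 0 := by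
    rintro rfl
    exact hw (QuadraticMap.map_zero Q)
  have h4 := (smul_eq_zero.1 h1.symm).resolve_right hw0
  have h5 : (2 : F) = 0 := by
    have h6 : κ * κ = 2 := by linear_combination -h3
    rw [h6] at h4
    linear_combination h4
  have h7 : κ * κ = 0 := by linear_combination h5 - h3
  exact hκ0 (mul_self_eq_zero.1 h7)

/-- A linear map injective from `W₁` into `W₂` of the same finite dimension is onto. -/
theorem exists_preimage {W₁ W₂ : Submodule F V} {k : ℕ} (hk : 0 < k)
    (h1 : Module.finrank F W₁ = k) (h2 : Module.finrank F W₂ = k) (f : V →ₗ[F] V)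
    (hf : ∀ x ∈ W₁, f x ∈ W₂) (hinj : ∀ x ∈ W₁, f x = 0 → x = 0) {z : V} (hz : z ∈ W₂) :
    ∃ y ∈ W₁, f y = z := by
  have : FiniteDimensional F W₁ := Module.finite_of_finrank_pos (by omega)
  have : FiniteDimensional F W₂ := Module.finite_of_finrank_pos (by omega)
  let φ : W₁ →ₗ[F] W₂ := f.restrict hf
  have hφ : Function.Injective φ := by
    rw [← LinearMap.ker_eq_bot, eq_bot_iff]
    intro x hx
    rw [LinearMap.mem_ker] at hx
    rw [Submodule.mem_bot]
    apply Subtype.ext
    exact hinj x x.2 (congrArg Subtype.val hx)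
  have hsurj := (LinearMap.injective_iff_surjective_of_finrank_eq_finrank (by rw [h1, h2])).1 hφ
  obtain ⟨y, hy⟩ := hsurj ⟨z, hz⟩
  exact ⟨y, y.2, congrArg Subtype.val hy⟩

/-- **Full support.** `D`, `D'` two decompositions into anisotropic planes without common vectors, `M` a
group of isometries containing the `r_a r_b` for `a, b` of the same norm in the same member of `D`, such that
elements of `M` mapping a nonzero vector of a member of `D'` into a member of `D'` permute the members of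
`D'`.  Then the components of a nonzero vector of a member of `D'` are nonzero. -/
theorem full_support [Finite F] (hq : Nat.card F ≠ 3) (h : Dec Q D p) (hD : ∀ i, AP Q (D i))
    (h' : Dec Q D' p') (hD' : ∀ i, AP Q (D' i)) (F1 : ∀ i j x, x ∈ D i → x ∈ D' j → x = 0)
    (F2 : ∀ m ∈ M, ∀ i j x, x ∈ D' i → x ≠ 0 → m x ∈ D' j → m ∈ stabFamily D')
    (F3 : ∀ i, ∀ a ∈ D i, ∀ b ∈ D i, ∀ (ha : Q a ≠ 0) (hb : Q b ≠ 0), Q a = Q b →
      refl Q a ha * refl Q b hb ∈ M) {j : Fin t} {x : V} (hx : x ∈ D' j) (hx0 : x ≠ 0)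
    (i : Fin t) : p i x ≠ 0 := by
  intro hi
  obtain ⟨w, hw, hw0, -⟩ := (hD i).exists_value 1 one_ne_zero
  obtain ⟨y, hy, hQy, hwy, hind⟩ := (hD i).exists_pair hq hw hw0
  have hQw := (hD i).ne hw hw0
  have hQy0 : Q y ≠ 0 := by rw [hQy]; exact hQw
  have hM := F3 i w hw y hy hQw hQy0 hQy.symm
  have hnot := not_involution hQw hQy0 hQy hwy hind
  set m := refl Q w hQw * refl Q y hQy0 with hm
  -- `m` moves only inside `D i`
  have hmem : ∀ z, z - m z ∈ D i := by
    intro z
    have e : m z = refl Q w hQw (refl Q y hQy0 z) := rfl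
    rw [e, refl_apply, refl_apply, sub_sub_eq_add_sub, sub_sub_eq_add_sub]
    have : z + ((Q w)⁻¹ * polar Q w (z - ((Q y)⁻¹ * polar Q y z) • y)) • w +
      ((Q y)⁻¹ * polar Q y z) • y - z = ((Q w)⁻¹ * polar Q w (z - ((Q y)⁻¹ * polar Q y z) • y)) • w +
      ((Q y)⁻¹ * polar Q y z) • y := by abel
    rw [this]
    exact (D i).add_mem ((D i).smul_mem _ hw) ((D i).smul_mem _ hy)
  have hmx : m x = x := by
    show refl Q w hQw (refl Q y hQy0 x) = x
    rw [refl_apply (v := y), h.polar_right i x hy, hi, polar_zero_right, mul_zero, zero_smul, sub_zero,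
      refl_apply, h.polar_right i x hw, hi, polar_zero_right, mul_zero, zero_smul, sub_zero]
  obtain ⟨σ, hσ⟩ := F2 m hM j j x hx hx0 (by rw [hmx]; exact hx)
  have hσ' : ∀ l z, z ∈ D' l → m z ∈ D' (σ l) := by
    intro l z hz
    rw [← hσ l]
    exact ⟨z, hz, rfl⟩
  by_cases hfix : ∀ l, σ l = l
  · -- `m` is trivial
    have hall : ∀ l z, z ∈ D' l → m z = z := by
      intro l z hz
      have h1 := hσ' l z hz
      rw [hfix l] at h1
      have h2 := F1 i l _ (hmem z) ((D' l).sub_mem hz h1)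
      rw [sub_eq_zero] at h2
      exact h2.symm
    have hw' : m w = w := by
      nth_rewrite 1 [← h'.sum w]
      rw [map_sum]
      conv_rhs => rw [← h'.sum w]
      exact Finset.sum_congr rfl fun l _ => hall l _ (h'.mem l w)
    exact hnot (by rw [hw', hw'])
  · push Not at hfix
    obtain ⟨l, hl⟩ := hfix
    have hsub : ∀ z ∈ D' l, z - m z = 0 → z = 0 := by
      intro z hz h0
      rw [sub_eq_zero] at h0
      refine h'.eq_zero_of_mem hl.symm hz ?_
      rw [h0]
      exact hσ' l z hz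
    have hpre := fun z hz => exists_preimage (z := z) (W₁ := D' l) (W₂ := D i) (k := 2) (by omega)
      (hD' l).rank (hD i).rank (LinearMap.id - (m : V →ₗ[F] V)) (fun z _ => hmem z)
      (fun z hz h0 => hsub z hz h0) hz
    obtain ⟨y', hy', hwy'⟩ := hpre w hw
    have hwy'' : w = y' - m y' := hwy'.symm
    have hmw : m w ∈ D i := by
      have := (D i).sub_mem hw (hmem w)
      rwa [sub_sub_cancel] at this
    obtain ⟨u, hu, hmu⟩ := hpre (m w) hmw
    have hmu' : m y' - m (m y') = u - m u := by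
      rw [← map_sub, ← hwy'']
      exact hmu.symm
    have hy'0 : y' ≠ 0 := by
      rintro rfl
      rw [map_zero, sub_zero] at hwy''
      exact hw0 hwy''
    -- components
    have c1 : p' l (m y') = 0 := h'.other l (σ l) hl.symm _ (hσ' l y' hy')
    have c2 : p' (σ l) (m y') = m y' := h'.self _ _ (hσ' l y' hy')
    have c3 : p' l u = u := h'.self _ _ hu
    have c4 : p' l (m u) = 0 := h'.other l (σ l) hl.symm _ (hσ' l u hu)
    have c5 : p' (σ l) u = 0 := h'.other (σ l) l hl _ hu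
    have c6 : p' (σ l) (m u) = m u := h'.self _ _ (hσ' l u hu)
    have hσσ : σ (σ l) ≠ σ l := fun h1 => hl (σ.injective h1)
    have hmm := hσ' (σ l) (m y') (hσ' l y' hy')
    have c7 : p' (σ l) (m (m y')) = 0 := h'.other (σ l) (σ (σ l)) hσσ.symm _ hmm
    have d1 := congrArg (p' (σ l)) hmu'
    rw [map_sub, map_sub, c2, c7, c5, c6, sub_zero, zero_sub, ← map_neg] at d1
    have d2 : y' = -u := m.injective d1
    have d3 := congrArg (p' l) hmu'
    rw [map_sub, map_sub, c1, c3, c4, sub_zero, zero_sub] at d3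
    have d4 : p' l (m (m y')) = y' := (neg_eq_iff_eq_neg.1 d3).trans d2.symm
    have hσl : σ (σ l) = l := by
      by_contra hne
      rw [h'.other l (σ (σ l)) (fun h1 => hne h1.symm) _ hmm] at d4
      exact hy'0 d4.symm
    rw [hσl] at hmm
    rw [h'.self l _ hmm] at d4
    apply hnot
    rw [hwy'', map_sub, map_sub, d4]

/-- **Rigid overgroups stabilise the decomposition.** -/
theorem le_stabFamily [Finite F] [FiniteDimensional F V] (hq : Nat.card F ≠ 3) (hG : Good Q)
    (h : Dec Q D p) (hD : ∀ i, AP Q (D i)) (ht : 3 ≤ t) (hMO : M ≤ O Q)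
    (hH : stabFamily D ⊓ E Q ≤ M) (hR : Rigid Q D M) : M ≤ stabFamily D := by
  intro g hg
  by_contra hgD
  have hgO := hMO hg
  have hfin : ∀ i, Module.finrank F (D i) = 2 := fun i => (hD i).rank
  have hconn : ∀ v : F, v ≠ 0 → ∀ l, Conn Q (D l) v := by
    intro v hv l
    obtain ⟨y, hy, hy0, hQy⟩ := (hD l).exists_value v hv
    rw [← hQy]
    exact (hD l).conn hq hy hy0
  set D' : Fin t → Submodule F V := fun i => (D i).map (g : V →ₗ[F] V) with hD'def
  have h' := h.map hgO
  have hD' : ∀ i, AP Q (D' i) := by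
    intro i
    refine ⟨?_, ?_, ?_⟩
    · rw [← hfin i]
      exact LinearEquiv.finrank_map_eq g (D i)
    · exact h'.nondegOn hG.nondeg i
    · rintro _ ⟨x, hx, rfl⟩ hx0
      have h1 : Q x = 0 := by
        rw [← mem_O.1 hgO x]
        exact hx0
      rw [(hD i).aniso x hx h1, map_zero]
  have F1 : ∀ i j x, x ∈ D i → x ∈ D' j → x = 0 := by
    intro i j x hx hx'
    by_contra hx0
    have hQx := (hD i).ne hx hx0
    exact not_mem_map h hG (by omega) hfin hMO hH hR hg hgD hx hx' hQx (hconn _ hQx)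
  have F2 : ∀ m ∈ M, ∀ i j x, x ∈ D' i → x ≠ 0 → m x ∈ D' j → m ∈ stabFamily D' := by
    intro m hm i j x hx hx0 hmx
    have hQx := (hD' i).ne hx hx0
    exact mem_stabFamily_map' h hG (by omega) hfin hMO hH hR hg hx hQx (hconn _ hQx) hm hmx
  have F3 : ∀ i, ∀ a ∈ D i, ∀ b ∈ D i, ∀ (ha : Q a ≠ 0) (hb : Q b ≠ 0), Q a = Q b →
      refl Q a ha * refl Q b hb ∈ M := by
    intro i a ha b hb hQa hQb hab
    exact hH (h.refl_mul_refl_mem hG ha hb hQa hQb hab)
  have full : ∀ j x, x ∈ D' j → x ≠ 0 → ∀ i, p i x ≠ 0 := fun j x hx hx0 i =>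
    full_support hq h hD h' hD' F1 F2 F3 hx hx0 i
  -- a nonzero vector of the first member of `D'`
  let j0 : Fin t := ⟨0, by omega⟩
  obtain ⟨x, hx, hx0, -⟩ := (hD' j0).exists_value 1 one_ne_zero
  have hfr : ∀ i, ∃ a ∈ D i, a ≠ 0 ∧ polar Q a x = 0 := by
    intro i
    obtain ⟨a, b, hab⟩ := (hD i).exists_fr (h.mem i x) (full j0 x hx hx0 i)
    exact ⟨a, hab.ha, hab.ha0, by rw [h.polar_right i x hab.ha]; exact hab.hax⟩
  choose a ha ha0 hax using hfr
  obtain ⟨i, j, l, hij, hli, hlj, c, hc0, hc⟩ := exists_same_class ht (fun i => Q (a i))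
    (fun i => (hD i).ne (ha i) (ha0 i))
  have hu : c • a i ∈ D i := (D i).smul_mem _ (ha i)
  have hu0 : c • a i ≠ 0 := smul_ne_zero hc0 (ha0 i)
  have hQu := (hD i).ne hu hu0
  have hQw := (hD j).ne (ha j) (ha0 j)
  have hQuw : Q (c • a i) = Q (a j) := by
    rw [QuadraticMap.map_smul, smul_eq_mul]
    exact hc.symm
  have hux : polar Q (c • a i) x = 0 := by rw [polar_smul_left, hax, smul_zero]
  have hmM := hH (h.refl_mul_refl_mem hG hu (ha j) hQu hQw hQuw)
  set m := refl Q (c • a i) hQu * refl Q (a j) hQw with hm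
  have hmx : m x = x := by
    show refl Q (c • a i) hQu (refl Q (a j) hQw x) = x
    rw [refl_apply (v := a j), hax, mul_zero, zero_smul, sub_zero, refl_apply, hux, mul_zero, zero_smul,
      sub_zero]
  obtain ⟨σ, hσ⟩ := F2 m hmM j0 j0 x hx hx0 (by rw [hmx]; exact hx)
  have hσ' : ∀ l z, z ∈ D' l → m z ∈ D' (σ l) := by
    intro l z hz
    rw [← hσ l]
    exact ⟨z, hz, rfl⟩
  have hσ0 : σ j0 = j0 := by
    by_contra hne
    have h1 := hσ' j0 x hx
    rw [hmx] at h1
    exact hx0 (h'.eq_zero_of_mem (Ne.symm hne) hx h1)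
  have huw : polar Q (c • a i) (a j) = 0 := h.orth i j hij _ hu _ (ha j)
  have hdiff : ∀ z, z - m z = ((Q (a j))⁻¹ * polar Q (a j) z) • a j +
      ((Q (c • a i))⁻¹ * polar Q (c • a i) z) • (c • a i) := by
    intro z
    have e : m z = refl Q (c • a i) hQu (refl Q (a j) hQw z) := rfl
    rw [e, refl_apply, refl_apply, polar_sub_right, polar_smul_right, huw]
    module
  have htriv : ∀ y ∈ D' j0, polar Q (c • a i) y = 0 := by
    intro y hy
    have h1 : y - m y ∈ D' j0 := by
      refine (D' j0).sub_mem hy ?_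
      have := hσ' j0 y hy
      rwa [hσ0] at this
    have h2 : p l (y - m y) = 0 := by
      rw [hdiff, map_add, map_smul, map_smul, h.other l j hlj _ (ha j), h.other l i hli _ hu]
      simp
    have h3 : y - m y = 0 := by
      by_contra h0
      exact full j0 _ h1 h0 l h2
    have h4 := congrArg (p i) h3
    rw [hdiff, map_add, map_smul, map_smul, h.other i j hij _ (ha j), h.self i _ hu, smul_zero,
      zero_add, map_zero] at h4
    have h5 := (smul_eq_zero.1 h4).resolve_right hu0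
    exact (mul_eq_zero.1 h5).resolve_left (inv_ne_zero hQu)
  apply hu0
  refine (hD i).nd _ hu fun z hz => ?_
  obtain ⟨y, hy, rfl⟩ := exists_preimage (W₁ := D' j0) (W₂ := D i) (k := 2) (by omega)
    (hD' j0).rank (hD i).rank (p i) (fun z _ => h.mem i z) (fun z hz h0 => by
      by_contra hz0
      exact full j0 z hz hz0 i h0) hz
  rw [← h.polar_right i y hu]
  exact htriv y hy

end Cfsg.Agent.H886.PlaneRigid
end

-- part: H886/DecTools
section
/-!
Tools for stabilisers of orthogonal decompositions: corrections inside a member representing every scalar,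
swaps of two isometric members, the product of the reflections in `x` and `x - s` (`s` singular, `s ⊥ x`).
-/

set_option autoImplicit false

namespace Cfsg.Agent.H886.DecTools

open QuadraticMap Cfsg.Agent.LieClassical.OrthCore Cfsg.Agent.LieClassical.OrthTrans
  Cfsg.Agent.LieClassical.OrthFinite Cfsg.Agent.LieClassical.OrthSimple Cfsg.Agent.H883.Bridge
  Cfsg.Agent.H883.Root Cfsg.Agent.H883.Sub Cfsg.Agent.H886.Decomp

variable {F V : Type*} [Field F] [AddCommGroup V] [Module F V] {Q : QuadraticForm F V} {t : ℕ}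
  {D : Fin t → Submodule F V} {p : Fin t → V →ₗ[F] V} {M : Subgroup (V ≃ₗ[F] V)}

/-- The product of the reflections in `x` and `x - s` is a Siegel transformation at `s`. -/
theorem refl_mul_refl_sub {x s : V} (hx : Q x ≠ 0) (hs : Q s = 0) (hsx : polar Q s x = 0)
    (hxs : Q (x - s) ≠ 0) (hp : polar Q s ((-(Q x)⁻¹) • x) = 0) :
    refl Q x hx * refl Q (x - s) hxs = siegel Q s ((-(Q x)⁻¹) • x) hs hp := by
  have hQ : Q (x - s) = Q x := by
    rw [sub_eq_add_neg, Q_add, QuadraticMap.map_neg, polar_neg_right, polar_comm, hs, hsx]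
    ring
  have hxs' : polar Q x s = 0 := by rw [polar_comm]; exact hsx
  ext v
  show refl Q x hx (refl Q (x - s) hxs v) = _
  rw [siegel_apply, refl_apply, refl_apply, hQ, QuadraticMap.map_smul, polar_smul_left]
  simp only [polar_sub_right, polar_sub_left, polar_smul_right, polar_self', hxs', smul_eq_mul]
  match_scalars
  · ring
  · field_simp
    ring
  · field_simp

/-- Every isometry is in `E Q` up to a product of reflections in vectors of a given subspace representing
every nonzero scalar. -/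
theorem exists_correction [FiniteDimensional F V] (hG : Good Q) {W : Submodule F V}
    (hW : ∀ v : F, v ≠ 0 → ∃ y ∈ W, Q y = v) {g : V ≃ₗ[F] V} (hg : g ∈ O Q) :
    ∃ w ∈ Subgroup.closure {r : V ≃ₗ[F] V | ∃ c ∈ W, ∃ hc : Q c ≠ 0, r = refl Q c hc},
      g * w ∈ E Q := by
  set R := Subgroup.closure {r : V ≃ₗ[F] V | ∃ c ∈ W, ∃ hc : Q c ≠ 0, r = refl Q c hc} with hR
  have hRO : R ≤ O Q := by
    rw [hR, Subgroup.closure_le]
    rintro _ ⟨c, _, hc, rfl⟩
    exact refl_mem_O hc
  rw [O_eq_closure hG.nondeg] at hg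
  induction hg using Subgroup.closure_induction with
  | mem x hx =>
    rcases hx with ⟨v, hv, rfl⟩ | ⟨u, w, hu, hw, rfl⟩
    · obtain ⟨c, hc, hQc⟩ := hW (Q v) hv
      have hc0 : Q c ≠ 0 := by rw [hQc]; exact hv
      exact ⟨refl Q c hc0, Subgroup.subset_closure ⟨c, hc, hc0, rfl⟩,
        hG.refl_mul_refl_mem hc0 hv hQc⟩
    · exact ⟨1, R.one_mem, by rw [mul_one]; exact siegel_mem_E hu hw⟩
  | one => exact ⟨1, R.one_mem, by rw [mul_one]; exact (E Q).one_mem⟩
  | mul x y hx hy h1 h2 =>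
    obtain ⟨w1, hw1, h1⟩ := h1
    obtain ⟨w2, hw2, h2⟩ := h2
    refine ⟨w2 * w1, R.mul_mem hw2 hw1, ?_⟩
    have hxO : x ∈ O Q := by rw [O_eq_closure hG.nondeg]; exact hx
    have e : x * y * (w2 * w1) = (x * (y * w2) * x⁻¹) * (x * w1) := by group
    rw [e]
    exact (E Q).mul_mem (conj_mem_E hxO h2) h1
  | inv x hx h1 =>
    obtain ⟨w, hw, h1⟩ := h1
    refine ⟨w⁻¹, R.inv_mem hw, ?_⟩
    have e : x⁻¹ * w⁻¹ = w * (x * w)⁻¹ * w⁻¹ := by group
    rw [e]
    exact conj_mem_E (hRO hw) ((E Q).inv_mem h1)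

/-- **Correction**: an isometry permuting the members agrees, on the vectors without component in the
member `D m`, with an element of `E Q` permuting the members. -/
theorem exists_mem [FiniteDimensional F V] (h : Dec Q D p) (hG : Good Q) (m : Fin t)
    (hm : ∀ v : F, v ≠ 0 → ∃ y ∈ D m, Q y = v) {g : V ≃ₗ[F] V} (hg : g ∈ O Q)
    (hgD : g ∈ stabFamily D) :
    ∃ g' ∈ stabFamily D ⊓ E Q, ∀ z, p m z = 0 → g' z = g z := by
  obtain ⟨w, hw, hgw⟩ := exists_correction hG hm hg
  have h1 : w ∈ stabFamily D ∧ ∀ z, p m z = 0 → w z = z := by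
    clear hgw
    induction hw using Subgroup.closure_induction with
    | mem x hx =>
      obtain ⟨c, hc, hc0, rfl⟩ := hx
      refine ⟨h.refl_mem_stabFamily hc hc0, fun z hz => ?_⟩
      rw [refl_apply, h.polar_right m z hc, hz, polar_zero_right, mul_zero, zero_smul, sub_zero]
    | one => exact ⟨(stabFamily D).one_mem, fun z _ => rfl⟩
    | mul x y _ _ hx hy =>
      refine ⟨(stabFamily D).mul_mem hx.1 hy.1, fun z hz => ?_⟩
      show x (y z) = z
      rw [hy.2 z hz, hx.2 z hz]
    | inv x _ hx =>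
      refine ⟨(stabFamily D).inv_mem hx.1, fun z hz => ?_⟩
      show x.symm z = z
      rw [LinearEquiv.symm_apply_eq, hx.2 z hz]
  refine ⟨g * w, ⟨(stabFamily D).mul_mem hgD h1.1, hgw⟩, fun z hz => ?_⟩
  show g (w z) = g z
  rw [h1.2 z hz]

/-- **Swaps**: an isometry exchanging two isometric members and fixing everything orthogonal to them. -/
theorem exists_swap (h : Dec Q D p) {j l : Fin t} (hjl : j ≠ l) (e : D j ≃ₗ[F] D l)
    (he : ∀ z : D j, Q (e z : V) = Q (z : V)) :
    ∃ τ : V ≃ₗ[F] V, τ ∈ O Q ∧ τ ∈ stabFamily D ∧ (∀ z, p j z = 0 → p l z = 0 → τ z = z) ∧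
      (∀ z (hz : z ∈ D j), τ z = e ⟨z, hz⟩) ∧ (∀ z (hz : z ∈ D l), τ z = e.symm ⟨z, hz⟩) := by
  let pj : V →ₗ[F] D j := (p j).codRestrict (D j) (h.mem j)
  let pl : V →ₗ[F] D l := (p l).codRestrict (D l) (h.mem l)
  let f : V →ₗ[F] V := (D l).subtype ∘ₗ (e : D j →ₗ[F] D l) ∘ₗ pj
  let f' : V →ₗ[F] V := (D j).subtype ∘ₗ (e.symm : D l →ₗ[F] D j) ∘ₗ pl
  let T : V →ₗ[F] V := LinearMap.id - p j - p l + f + f'
  have hT : ∀ z, T z = z - p j z - p l z + f z + f' z := fun z => rfl
  have hf : ∀ z, f z = (e (pj z) : V) := fun z => rfl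
  have hf' : ∀ z, f' z = (e.symm (pl z) : V) := fun z => rfl
  have hpj : ∀ z (hz : z ∈ D j), pj z = ⟨z, hz⟩ := fun z hz => Subtype.ext (h.self j z hz)
  have hpl : ∀ z (hz : z ∈ D l), pl z = ⟨z, hz⟩ := fun z hz => Subtype.ext (h.self l z hz)
  have hpj0 : ∀ z, p j z = 0 → pj z = 0 := fun z hz => Subtype.ext hz
  have hpl0 : ∀ z, p l z = 0 → pl z = 0 := fun z hz => Subtype.ext hz
  have T0 : ∀ z, p j z = 0 → p l z = 0 → T z = z := by
    intro z h1 h2
    rw [hT, hf, hf', hpj0 z h1, hpl0 z h2, h1, h2]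
    simp
  have Tj : ∀ z (hz : z ∈ D j), T z = e ⟨z, hz⟩ := by
    intro z hz
    have h2 : p l z = 0 := h.other l j hjl.symm z hz
    rw [hT, hf, hf', hpj z hz, hpl0 z h2, h2, h.self j z hz]
    simp
  have Tl : ∀ z (hz : z ∈ D l), T z = e.symm ⟨z, hz⟩ := by
    intro z hz
    have h2 : p j z = 0 := h.other j l hjl z hz
    rw [hT, hf, hf', hpl z hz, hpj0 z h2, h2, h.self l z hz]
    simp
  have hsplit : ∀ z, z = (z - p j z - p l z) + p j z + p l z := fun z => by abel
  have hz0j : ∀ z, p j (z - p j z - p l z) = 0 := by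
    intro z
    rw [map_sub, map_sub, h.self j _ (h.mem j z), h.other j l hjl _ (h.mem l z), sub_self, sub_zero]
  have hz0l : ∀ z, p l (z - p j z - p l z) = 0 := by
    intro z
    rw [map_sub, map_sub, h.self l _ (h.mem l z), h.other l j hjl.symm _ (h.mem j z), sub_zero,
      sub_self]
  have hTT : ∀ z, T (T z) = z := by
    intro z
    have e1 : T z = (z - p j z - p l z) + (e ⟨p j z, h.mem j z⟩ : V) +
        (e.symm ⟨p l z, h.mem l z⟩ : V) := by
      conv_lhs => rw [hsplit z]
      rw [map_add, map_add, T0 _ (hz0j z) (hz0l z), Tj _ (h.mem j z), Tl _ (h.mem l z)]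
    rw [e1, map_add, map_add, T0 _ (hz0j z) (hz0l z), Tl _ (Submodule.coe_mem _),
      Tj _ (Submodule.coe_mem _)]
    simp only [Subtype.coe_eta, LinearEquiv.symm_apply_apply, LinearEquiv.apply_symm_apply]
    abel
  let τ : V ≃ₗ[F] V := LinearEquiv.ofLinearMap T T (by ext z; exact hTT z) (by ext z; exact hTT z)
  have hτ : ∀ z, τ z = T z := fun z => rfl
  have hQT : ∀ z, Q (T z) = Q z := by
    intro z
    have e1 : T z = (z - p j z - p l z) + (e ⟨p j z, h.mem j z⟩ : V) +
        (e.symm ⟨p l z, h.mem l z⟩ : V) := by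
      conv_lhs => rw [hsplit z]
      rw [map_add, map_add, T0 _ (hz0j z) (hz0l z), Tj _ (h.mem j z), Tl _ (h.mem l z)]
    have he' : Q (e.symm ⟨p l z, h.mem l z⟩ : V) = Q (p l z) := by
      have := he (e.symm ⟨p l z, h.mem l z⟩)
      rw [LinearEquiv.apply_symm_apply] at this
      exact this.symm
    have hp1 : ∀ y ∈ D j, polar Q (z - p j z - p l z) y = 0 := by
      intro y hy
      rw [h.polar_left j _ hy, hz0j, polar_zero_left]
    have hp2 : ∀ y ∈ D l, polar Q (z - p j z - p l z) y = 0 := by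
      intro y hy
      rw [h.polar_left l _ hy, hz0l, polar_zero_left]
    conv_rhs => rw [hsplit z]
    rw [e1, Q_add, Q_add, Q_add, Q_add, he, he', polar_add_left, polar_add_left,
      hp2 _ (Submodule.coe_mem _), hp1 _ (Submodule.coe_mem _), hp1 _ (h.mem j z), hp2 _ (h.mem l z),
      h.orth l j hjl.symm _ (Submodule.coe_mem _) _ (Submodule.coe_mem _),
      h.orth j l hjl _ (h.mem j z) _ (h.mem l z)]
  refine ⟨τ, hQT, ?_, T0, Tj, Tl⟩
  have hmap : ∀ i, ∀ x ∈ D i, T x ∈ D (Equiv.swap j l i) := by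
    intro i x hx
    by_cases hij : i = j
    · subst hij
      rw [Equiv.swap_apply_left, Tj x hx]
      exact Submodule.coe_mem _
    by_cases hil : i = l
    · subst hil
      rw [Equiv.swap_apply_right, Tl x hx]
      exact Submodule.coe_mem _
    rw [Equiv.swap_apply_of_ne_of_ne hij hil, T0 x (h.other j i (Ne.symm hij) x hx)
      (h.other l i (Ne.symm hil) x hx)]
    exact hx
  refine ⟨Equiv.swap j l, fun i => le_antisymm ?_ ?_⟩
  · rintro _ ⟨x, hx, rfl⟩
    exact hmap i x hx
  · intro x hx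
    refine ⟨T x, ?_, hTT x⟩
    have := hmap _ x hx
    rwa [Equiv.swap_apply_self] at this

end Cfsg.Agent.H886.DecTools
end

-- part: H886/PlaneNonRigid
section
/-!
Non-rigid overgroups of the stabiliser of an orthogonal decomposition into anisotropic planes contain `E Q`
(at least five members, `|F| ≠ 3`).
-/

set_option autoImplicit false
set_option linter.unusedSectionVars false
set_option linter.unusedVariables false

namespace Cfsg.Agent.H886.PlaneNonRigid

open QuadraticMap Cfsg.Agent.LieClassical.OrthCore Cfsg.Agent.LieClassical.OrthTrans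
  Cfsg.Agent.LieClassical.OrthFinite Cfsg.Agent.LieClassical.OrthSimple Cfsg.Agent.H883.Bridge
  Cfsg.Agent.H883.Root Cfsg.Agent.H883.Sub Cfsg.Agent.H886.Decomp Cfsg.Agent.H886.Rigid
  Cfsg.Agent.H886.Plane Cfsg.Agent.H886.PlaneRigid Cfsg.Agent.H886.DecTools

variable {F V : Type*} [Field F] [AddCommGroup V] [Module F V] {Q : QuadraticForm F V} {t : ℕ}
  {D : Fin t → Submodule F V} {p : Fin t → V →ₗ[F] V} {M : Subgroup (V ≃ₗ[F] V)}

/-- `x` is linked by `M` to a nonsingular vector of a member. -/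
def Linked (Q : QuadraticForm F V) (D : Fin t → Submodule F V) (M : Subgroup (V ≃ₗ[F] V)) (x : V) :
    Prop :=
  ∃ hx : Q x ≠ 0, ∃ i, ∃ a ∈ D i, ∃ ha : Q a ≠ 0, refl Q a ha * refl Q x hx ∈ M

theorem linked_move (h : Dec Q D p) (hG : Good Q) (hMO : M ≤ O Q) (hH : stabFamily D ⊓ E Q ≤ M)
    {x : V} (hx : Linked Q D M x) {g : V ≃ₗ[F] V} (hg : g ∈ stabFamily D ⊓ E Q) (hQx : Q x ≠ 0)
    (hgx : Q (g x) ≠ 0) : refl Q x hQx * refl Q (g x) hgx ∈ M := by
  obtain ⟨_, i, a, ha, hQa, hM⟩ := hx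
  have hgM := hH hg
  have hgO := hMO hgM
  obtain ⟨σ, hσ⟩ := hg.1
  have hga : g a ∈ D (σ i) := by
    rw [← hσ i]
    exact ⟨a, ha, rfl⟩
  have hQga : Q (g a) ≠ 0 := by rw [mem_O.1 hgO]; exact hQa
  have h1 : refl Q a hQa * refl Q (g a) hQga ∈ M :=
    hH (h.refl_mul_refl_mem hG ha hga hQa hQga (mem_O.1 hgO a).symm)
  have h2 := M.mul_mem (M.mul_mem hgM hM) (M.inv_mem hgM)
  rw [conj_refl_mul_refl hgO hQa hQx hQga hgx] at h2
  have h3 := M.mul_mem (M.mul_mem (M.inv_mem hM) h1) h2
  have e : (refl Q a hQa * refl Q x hQx)⁻¹ * (refl Q a hQa * refl Q (g a) hQga) *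
      (refl Q (g a) hQga * refl Q (g x) hgx) = refl Q x hQx * refl Q (g x) hgx := by
    have e1 := refl_mul_self (Q := Q) hQga
    rw [mul_inv_rev, refl_inv, refl_inv]
    calc refl Q x hQx * refl Q a hQa * (refl Q a hQa * refl Q (g a) hQga) *
        (refl Q (g a) hQga * refl Q (g x) hgx)
        = refl Q x hQx * (refl Q a hQa * refl Q a hQa) * (refl Q (g a) hQga * refl Q (g a) hQga) *
          refl Q (g x) hgx := by group
      _ = refl Q x hQx * refl Q (g x) hgx := by
          rw [refl_mul_self, refl_mul_self, mul_one, mul_one]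
  rwa [e] at h3

theorem linked_refl (h : Dec Q D p) (hG : Good Q) (hMO : M ≤ O Q) (hH : stabFamily D ⊓ E Q ≤ M)
    {x : V} (hx : Linked Q D M x) {g : V ≃ₗ[F] V} (hg : g ∈ stabFamily D ⊓ E Q)
    (hgx : Q (g x) ≠ 0) : Linked Q D M (refl Q (g x) hgx x) := by
  obtain ⟨hQx, i, a, ha, hQa, hM⟩ := id hx
  have h1 := linked_move h hG hMO hH hx hg hQx hgx
  have hO := refl_mem_O (Q := Q) hgx
  have hQ' : Q (refl Q (g x) hgx x) ≠ 0 := by rw [mem_O.1 hO]; exact hQx
  refine ⟨hQ', i, a, ha, hQa, ?_⟩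
  rw [← refl_conj hO hQx hQ', refl_inv]
  have h2 := M.mul_mem (M.mul_mem hM h1) h1
  have e : refl Q a hQa * refl Q x hQx * (refl Q x hQx * refl Q (g x) hgx) *
      (refl Q x hQx * refl Q (g x) hgx) =
      refl Q a hQa * (refl Q (g x) hgx * refl Q x hQx * refl Q (g x) hgx) := by
    calc refl Q a hQa * refl Q x hQx * (refl Q x hQx * refl Q (g x) hgx) *
        (refl Q x hQx * refl Q (g x) hgx)
        = refl Q a hQa * (refl Q x hQx * refl Q x hQx) * refl Q (g x) hgx *
          refl Q x hQx * refl Q (g x) hgx := by group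
      _ = _ := by
          rw [refl_mul_self, mul_one]
          group
  rwa [e] at h2

/-- A Siegel transformation from a linked vector. -/
theorem has_of_move (h : Dec Q D p) (hG : Good Q) (hMO : M ≤ O Q) (hH : stabFamily D ⊓ E Q ≤ M)
    {x s : V} (hx : Linked Q D M x) {g : V ≃ₗ[F] V} (hg : g ∈ stabFamily D ⊓ E Q)
    (hgx : g x = x - s) (hs : Q s = 0) (hsx : polar Q s x = 0) :
    Has Q M s ((-(Q x)⁻¹) • x) := by
  obtain ⟨hQx, -⟩ := id hx
  have hQ' : Q (g x) ≠ 0 := by rw [mem_O.1 (E_le_O hg.2)]; exact hQx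
  have h1 := linked_move h hG hMO hH hx hg hQx hQ'
  have hp : polar Q s ((-(Q x)⁻¹) • x) = 0 := by rw [polar_smul_right, hsx, smul_zero]
  refine ⟨hs, hp, ?_⟩
  have hQ'' : Q (x - s) ≠ 0 := by rw [← hgx]; exact hQ'
  rw [← refl_mul_refl_sub hQx hs hsx hQ'' hp]
  have e : refl Q (x - s) hQ'' = refl Q (g x) hQ' := by simp only [hgx]
  rw [e]
  exact h1

theorem exists_notMem_finset (S : Finset (Fin t)) (hS : S.card < t) : ∃ i, i ∉ S := by
  by_contra hc
  push Not at hc
  have : S = Finset.univ := Finset.eq_univ_iff_forall.2 hc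
  rw [this, Finset.card_univ, Fintype.card_fin] at hS
  omega

/-- Products of two reflections whose norms differ by a square factor. -/
theorem refl_mul_refl_factor (hG : Good Q) {c d : V} (hc : Q c ≠ 0) (hd : Q d ≠ 0) {e : F}
    (he : e ≠ 0) (hQ : Q d = e * e * Q c) : refl Q c hc * refl Q d hd ∈ E Q := by
  have h1 : Q (e • c) ≠ 0 := by
    rw [QuadraticMap.map_smul, smul_eq_mul]
    exact mul_ne_zero (mul_ne_zero he he) hc
  rw [← refl_smul hc he h1]
  refine hG.refl_mul_refl_mem hd h1 ?_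
  rw [QuadraticMap.map_smul, smul_eq_mul, hQ]

section Planes

variable [Finite F] [FiniteDimensional F V]

/-- A linked vector outside the members leads to one with three nonzero components. -/
theorem exists_three (hq : Nat.card F ≠ 3) (hG : Good Q) (h : Dec Q D p) (hD : ∀ i, AP Q (D i))
    (hiso : ∀ i j, ∃ e : D i ≃ₗ[F] D j, ∀ z : D i, Q (e z : V) = Q (z : V)) (ht : 4 ≤ t)
    (hMO : M ≤ O Q) (hH : stabFamily D ⊓ E Q ≤ M) {x : V} (hx : Linked Q D M x)
    (hxD : ∀ i, x ∉ D i) :
    ∃ x', Linked Q D M x' ∧ ∃ i j l, i ≠ j ∧ i ≠ l ∧ j ≠ l ∧ p i x' ≠ 0 ∧ p j x' ≠ 0 ∧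
      p l x' ≠ 0 := by
  obtain ⟨hQx, -⟩ := id hx
  obtain ⟨i, hi⟩ : ∃ i, p i x ≠ 0 := by
    by_contra hc
    push Not at hc
    rw [h.eq_zero hc, QuadraticMap.map_zero] at hQx
    exact hQx rfl
  obtain ⟨j, hji, hj⟩ := h.exists_ne (hxD i)
  by_cases hl : ∃ l, l ≠ i ∧ l ≠ j ∧ p l x ≠ 0
  · obtain ⟨l, hli, hlj, hl⟩ := hl
    exact ⟨x, hx, i, j, l, hji.symm, hli.symm, hlj.symm, hi, hj, hl⟩
  push Not at hl
  obtain ⟨l, hlS⟩ := exists_notMem_finset ({i, j} : Finset (Fin t))
    (lt_of_le_of_lt Finset.card_le_two (by omega))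
  obtain ⟨m, hmS⟩ := exists_notMem_finset ({i, j, l} : Finset (Fin t))
    (lt_of_le_of_lt Finset.card_le_three (by omega))
  simp only [Finset.mem_insert, Finset.mem_singleton, not_or] at hlS hmS
  obtain ⟨hli, hlj⟩ := hlS
  obtain ⟨hmi, hmj, hml⟩ := hmS
  have hxs : x = p i x + p j x := by
    refine h.ext fun k => ?_
    rw [map_add]
    by_cases hki : k = i
    · subst hki
      rw [h.self k _ (h.mem k x), h.other k j hji.symm _ (h.mem j x), add_zero]
    by_cases hkj : k = j
    · subst hkj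
      rw [h.self k _ (h.mem k x), h.other k i hki _ (h.mem i x), zero_add]
    rw [h.other k i hki _ (h.mem i x), h.other k j hkj _ (h.mem j x), hl k hki hkj, add_zero]
  -- a vector `y` of the same norm as `p i x`
  obtain ⟨a, b, hfr⟩ := (hD i).exists_fr (h.mem i x) hi
  obtain ⟨y, hy, hQy, h1, h2⟩ := (hD i).exists_nonorth hq (h.mem i x) hi (h.mem i x) hi hfr.ha hfr.ha0
  have hc0 : p i x - y ≠ 0 := by
    intro h0
    rw [sub_eq_zero] at h0
    rw [← h0] at h2
    exact h2 hfr.hax
  have hcm : p i x - y ∈ D i := (D i).sub_mem (h.mem i x) hy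
  have hQc := (hD i).ne hcm hc0
  have hr := refl_sub_apply hQy hQc
  obtain ⟨e, he⟩ := hiso j l
  obtain ⟨τ, hτO, hτD, hτ0, hτj, -⟩ := DecTools.exists_swap h (Ne.symm hlj) e he
  have hgO : τ * refl Q (p i x - y) hQc ∈ O Q := (O Q).mul_mem hτO (refl_mem_O hQc)
  have hgD : τ * refl Q (p i x - y) hQc ∈ stabFamily D :=
    (stabFamily D).mul_mem hτD (h.refl_mem_stabFamily hcm hQc)
  obtain ⟨g, hgH, hg⟩ := exists_mem h hG m (fun v hv => by
    obtain ⟨y, hy, -, hQy⟩ := (hD m).exists_value v hv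
    exact ⟨y, hy, hQy⟩) hgO hgD
  have hxm : p m x = 0 := hl m hmi hmj
  set z : V := τ (p j x) with hz
  have hzl : z ∈ D l := by
    rw [hz, hτj _ (h.mem j x)]
    exact Submodule.coe_mem _
  have hz0 : z ≠ 0 := by
    intro h0
    rw [hz] at h0
    exact hj (by rwa [LinearEquiv.map_eq_zero_iff] at h0)
  have hgx : g x = y + z := by
    rw [hg x hxm]
    show τ (refl Q (p i x - y) hQc x) = y + z
    have e1 : refl Q (p i x - y) hQc x = y + p j x := by
      have e2 : refl Q (p i x - y) hQc x = refl Q (p i x - y) hQc (p i x + p j x) :=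
        congrArg _ hxs
      rw [e2, map_add, hr, refl_apply, h.orth i j hji.symm _ hcm _ (h.mem j x), mul_zero, zero_smul,
        sub_zero]
    rw [e1, map_add, hτ0 y (h.other j i hji y hy) (h.other l i hli y hy)]
  have hQgx : Q (g x) ≠ 0 := by rw [mem_O.1 (E_le_O hgH.2)]; exact hQx
  refine ⟨_, linked_refl h hG hMO hH hx hgH hQgx, i, j, l, hji.symm, Ne.symm hli, Ne.symm hlj, ?_,
    ?_, ?_⟩
  all_goals rw [refl_apply, map_sub, map_smul]
  all_goals
    have hpol : polar Q (g x) x = polar Q y (p i x) := by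
      rw [hgx, polar_add_left, h.polar_right i x hy, h.polar_right l x hzl, hl l hli hlj,
        polar_zero_right, add_zero]
    have hκ : (Q (g x))⁻¹ * polar Q (g x) x ≠ 0 := by
      refine mul_ne_zero (inv_ne_zero hQgx) ?_
      rw [hpol, polar_comm]
      exact h1
    generalize (Q (g x))⁻¹ * polar Q (g x) x = κ at hκ ⊢
  · rw [hgx, map_add, h.self i y hy, h.other i l (Ne.symm hli) z hzl, add_zero]
    intro h0
    rw [sub_eq_zero] at h0
    have h3 := hfr.hax
    rw [h0, polar_smul_right, smul_eq_mul] at h3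
    rcases mul_eq_zero.1 h3 with h4 | h4
    · exact hκ h4
    · exact h2 h4
  · rw [hgx, map_add, h.other j i hji y hy, h.other j l (Ne.symm hlj) z hzl, add_zero, smul_zero,
      sub_zero]
    exact hj
  · rw [hl l hli hlj, hgx, map_add, h.other l i hli y hy, h.self l z hzl, zero_add, zero_sub]
    exact neg_ne_zero.2 (smul_ne_zero hκ hz0)

omit [Finite F] [FiniteDimensional F V] in
/-- The effect of the reflection in `c ∈ D i` with `r_c (p i x) = p i x - c`. -/
theorem refl_pair_apply (h : Dec Q D p) {i : Fin t} {c z : V} (hc : c ∈ D i) (hQc : Q c ≠ 0)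
    (hcz : polar Q c (p i z) = Q c) : refl Q c hQc z = z - c := by
  rw [refl_apply, h.polar_right i z hc, hcz, inv_mul_cancel₀ hQc, one_smul]

/-- **A linked vector with three nonzero components gives a Siegel transformation.** -/
theorem exists_siegel (hq : Nat.card F ≠ 3) (hG : Good Q) (h : Dec Q D p) (hD : ∀ i, AP Q (D i))
    (ht : 5 ≤ t)
    (hMO : M ≤ O Q) (hH : stabFamily D ⊓ E Q ≤ M) {x : V} (hx : Linked Q D M x) {i j l : Fin t}
    (hij : i ≠ j) (hil : i ≠ l) (hjl : j ≠ l) (hi : p i x ≠ 0) (hj : p j x ≠ 0) (hl : p l x ≠ 0) :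
    ∃ s w : V, s ≠ 0 ∧ Has Q M s w ∧ ∃ S : Finset (Fin t), S.card ≤ 2 ∧ (∀ k, k ∉ S → p k s = 0) ∧
      ∃ k, k ∉ S ∧ p k w ≠ 0 := by
  classical
  obtain ⟨hQx, -⟩ := id hx
  have hκ : -(Q x)⁻¹ ≠ 0 := neg_ne_zero.2 (inv_ne_zero hQx)
  have hrep : ∀ m : Fin t, ∀ v : F, v ≠ 0 → ∃ y ∈ D m, Q y = v := fun m v hv => by
    obtain ⟨y, hy, -, hQy⟩ := (hD m).exists_value v hv
    exact ⟨y, hy, hQy⟩
  -- pairs
  obtain ⟨c, hc, d, hd, hQc, hQd, hcx, hdx, hcd⟩ :=
    exists_pair_sing (hD i) (hD j) (h.mem i x) hi (h.mem j x) hj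
  have hc0 : c ≠ 0 := by
    rintro rfl
    exact hQc (QuadraticMap.map_zero Q)
  have hpcd : polar Q c d = 0 := h.orth i j hij c hc d hd
  have hcx' : polar Q c x = Q c := by rw [h.polar_right i x hc, hcx]
  have hdx' : polar Q d x = Q d := by rw [h.polar_right j x hd, hdx]
  have hQcd : Q (c + d) = 0 := by rw [Q_add, hpcd, add_zero, hcd]
  have hpix : ∀ k, k ≠ i → k ≠ j → p k (c + d) = 0 := by
    intro k h1 h2
    rw [map_add, h.other k i h1 c hc, h.other k j h2 d hd, add_zero]
  have hcd0 : c + d ≠ 0 := by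
    intro h0
    have := congrArg (p i) h0
    rw [map_add, h.self i c hc, h.other i j hij d hd, add_zero, map_zero] at this
    exact hc0 this
  have hxcd : polar Q (c + d) x = 0 := by rw [polar_add_left, hcx', hdx', hcd]
  have hgx : (refl Q c hQc * refl Q d hQd) x = x - (c + d) := by
    show refl Q c hQc (refl Q d hQd x) = _
    rw [refl_pair_apply h hd hQd hdx, refl_pair_apply h hc hQc (by
      rw [map_sub, h.other i j hij d hd, sub_zero]; exact hcx)]
    abel
  have hgO : refl Q c hQc * refl Q d hQd ∈ O Q := (O Q).mul_mem (refl_mem_O _) (refl_mem_O _)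
  have hgD : refl Q c hQc * refl Q d hQd ∈ stabFamily D :=
    (stabFamily D).mul_mem (h.refl_mem_stabFamily hc _) (h.refl_mem_stabFamily hd _)
  -- the short case
  have short : (∃ g ∈ stabFamily D ⊓ E Q, g x = x - (c + d)) →
      ∃ s w : V, s ≠ 0 ∧ Has Q M s w ∧ ∃ S : Finset (Fin t), S.card ≤ 2 ∧
        (∀ k, k ∉ S → p k s = 0) ∧ ∃ k, k ∉ S ∧ p k w ≠ 0 := by
    rintro ⟨g, hg, hgx⟩
    refine ⟨c + d, (-(Q x)⁻¹) • x, hcd0, has_of_move h hG hMO hH hx hg hgx hQcd hxcd, {i, j},
      Finset.card_le_two, ?_, l, ?_, ?_⟩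
    · intro k hk
      simp only [Finset.mem_insert, Finset.mem_singleton, not_or] at hk
      exact hpix k hk.1 hk.2
    · simp only [Finset.mem_insert, Finset.mem_singleton, not_or]
      exact ⟨Ne.symm hil, Ne.symm hjl⟩
    · rw [map_smul]
      exact smul_ne_zero hκ hl
  by_cases hfull : ∃ m, p m x = 0
  · obtain ⟨m, hm⟩ := hfull
    apply short
    obtain ⟨g, hg, hg'⟩ := exists_mem h hG m (hrep m) hgO hgD
    exact ⟨g, hg, by rw [hg' x hm, hgx]⟩
  push Not at hfull
  by_cases hsq : IsSquare (-1 : F)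
  · apply short
    obtain ⟨e, he⟩ := hsq
    have he0 : e ≠ 0 := by
      rintro rfl
      rw [mul_zero] at he
      exact (neg_ne_zero.2 one_ne_zero) he
    refine ⟨_, ⟨hgD, refl_mul_refl_factor hG hQc hQd he0 ?_⟩, hgx⟩
    rw [← he]
    linear_combination hcd
  -- two pairs
  obtain ⟨l', hl'S⟩ := exists_notMem_finset ({i, j, l} : Finset (Fin t))
    (lt_of_le_of_lt Finset.card_le_three (by omega))
  obtain ⟨k, hkS⟩ := exists_notMem_finset ({i, j, l, l'} : Finset (Fin t))
    (lt_of_le_of_lt Finset.card_le_four (by omega))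
  obtain ⟨c', hc', d', hd', hQc', hQd', hcx2, hdx2, hcd2⟩ :=
    exists_pair_sing (hD l) (hD l') (h.mem l x) hl (h.mem l' x) (hfull l')
  simp only [Finset.mem_insert, Finset.mem_singleton, not_or] at hl'S
  obtain ⟨hl'i, hl'j, hl'l⟩ := hl'S
  have o1 : polar Q c c' = 0 := h.orth i l hil c hc c' hc'
  have o2 : polar Q c d' = 0 := h.orth i l' (Ne.symm hl'i) c hc d' hd'
  have o3 : polar Q d c' = 0 := h.orth j l hjl d hd c' hc'
  have o4 : polar Q d d' = 0 := h.orth j l' (Ne.symm hl'j) d hd d' hd'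
  have o5 : polar Q c' d' = 0 := h.orth l l' (Ne.symm hl'l) c' hc' d' hd'
  have hcx2' : polar Q c' x = Q c' := by rw [h.polar_right l x hc', hcx2]
  have hdx2' : polar Q d' x = Q d' := by rw [h.polar_right l' x hd', hdx2]
  have hgE : refl Q c hQc * refl Q d hQd * (refl Q c' hQc' * refl Q d' hQd') ∈ E Q := by
    have hd1 : Q d = -Q c := by linear_combination hcd
    have hd2 : Q d' = -Q c' := by linear_combination hcd2
    by_cases hcc : IsSquare (Q c * Q c')
    · obtain ⟨e, he, hQ⟩ := exists_factor hQc hQc' hcc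
      have e1 : refl Q c hQc * refl Q d hQd * (refl Q c' hQc' * refl Q d' hQd') =
          (refl Q c hQc * refl Q c' hQc') * (refl Q d hQd * refl Q d' hQd') := by
        have := refl_comm (Q := Q) hQd hQc' o3
        calc _ = refl Q c hQc * (refl Q d hQd * refl Q c' hQc') * refl Q d' hQd' := by group
          _ = _ := by rw [this]; group
      rw [e1]
      exact (E Q).mul_mem (refl_mul_refl_factor hG hQc hQc' he hQ)
        (refl_mul_refl_factor hG hQd hQd' he (by rw [hd1, hd2, hQ]; ring))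
    · have hcc' : IsSquare (Q c * Q d') := by
        have := isSquare_mul_of_not hsq hcc
        rw [hd2]
        obtain ⟨r, hr⟩ := this
        exact ⟨r, by rw [← hr]; ring⟩
      obtain ⟨e, he, hQ⟩ := exists_factor hQc hQd' hcc'
      have e1 : refl Q c hQc * refl Q d hQd * (refl Q c' hQc' * refl Q d' hQd') =
          (refl Q d hQd * refl Q c' hQc') * (refl Q c hQc * refl Q d' hQd') := by
        have h1 := refl_comm (Q := Q) hQc hQd hpcd
        have h2 := refl_comm (Q := Q) hQc hQc' o1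
        calc _ = (refl Q c hQc * refl Q d hQd) * refl Q c' hQc' * refl Q d' hQd' := by group
          _ = refl Q d hQd * (refl Q c hQc * refl Q c' hQc') * refl Q d' hQd' := by rw [h1]; group
          _ = _ := by rw [h2]; group
      rw [e1]
      exact (E Q).mul_mem (refl_mul_refl_factor hG hQd hQc' he (by
          rw [hd1]
          linear_combination -hQ + hd2))
        (refl_mul_refl_factor hG hQc hQd' he hQ)
  have hgD' : refl Q c hQc * refl Q d hQd * (refl Q c' hQc' * refl Q d' hQd') ∈ stabFamily D :=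
    (stabFamily D).mul_mem hgD
      ((stabFamily D).mul_mem (h.refl_mem_stabFamily hc' _) (h.refl_mem_stabFamily hd' _))
  have hgx' : (refl Q c hQc * refl Q d hQd * (refl Q c' hQc' * refl Q d' hQd')) x =
      x - (c + d + (c' + d')) := by
    show (refl Q c hQc * refl Q d hQd) (refl Q c' hQc' (refl Q d' hQd' x)) = _
    rw [refl_pair_apply h hd' hQd' hdx2, refl_pair_apply h hc' hQc' (by
      rw [map_sub, h.other l l' (Ne.symm hl'l) d' hd', sub_zero]; exact hcx2)]
    have e2 : (refl Q c hQc * refl Q d hQd) (x - d' - c') =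
        (refl Q c hQc * refl Q d hQd) x - (d' + c') := by
      rw [sub_sub, map_sub, map_add]
      have f1 : (refl Q c hQc * refl Q d hQd) d' = d' := by
        show refl Q c hQc (refl Q d hQd d') = d'
        rw [refl_apply (v := d), o4, mul_zero, zero_smul, sub_zero, refl_apply, o2, mul_zero, zero_smul,
          sub_zero]
      have f2 : (refl Q c hQc * refl Q d hQd) c' = c' := by
        show refl Q c hQc (refl Q d hQd c') = c'
        rw [refl_apply (v := d), o3, mul_zero, zero_smul, sub_zero, refl_apply, o1, mul_zero, zero_smul,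
          sub_zero]
      rw [f1, f2]
    rw [e2, hgx]
    abel
  have hQs : Q (c + d + (c' + d')) = 0 := by
    rw [Q_add, hQcd, Q_add, o5, polar_add_left, polar_add_right, polar_add_right, o1, o2, o3, o4]
    linear_combination hcd2
  have hxs : polar Q (c + d + (c' + d')) x = 0 := by
    rw [polar_add_left, hxcd, polar_add_left, hcx2', hdx2']
    linear_combination hcd2
  -- the long singular vector `s` and a nonzero `w₁ ∈ D k`
  simp only [Finset.mem_insert, Finset.mem_singleton, not_or] at hkS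
  obtain ⟨hki, hkj, hkl, hkl'⟩ := hkS
  have hsw := has_of_move h hG hMO hH hx ⟨hgD', hgE⟩ hgx' hQs hxs
  have hps : ∀ m, m ≠ l → m ≠ l' → p m (c' + d') = 0 := by
    intro m h1 h2
    rw [map_add, h.other m l h1 c' hc', h.other m l' h2 d' hd', add_zero]
  have hks : p k (c + d + (c' + d')) = 0 := by
    rw [map_add, hpix k hki hkj, hps k hkl hkl', add_zero]
  set s := c + d + (c' + d') with hsdef
  obtain ⟨a, b, hab⟩ := (hD k).exists_fr (h.mem k x) (hfull k)
  obtain ⟨a', ha', hQa', haw', -⟩ := (hD k).exists_nonorth hq hab.ha hab.ha0 (h.mem k x) (hfull k)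
    (h.mem k x) (hfull k)
  have hQa := (hD k).ne hab.ha hab.ha0
  have hQa0' : Q a' ≠ 0 := by rw [hQa']; exact hQa
  have fixs : ∀ z : V, p k z = 0 → ∀ c (_ : c ∈ D k) (hQc : Q c ≠ 0), refl Q c hQc z = z := by
    intro z hz c hc hQc
    rw [refl_apply, h.polar_right k z hc, hz, polar_zero_right, mul_zero, zero_smul, sub_zero]
  obtain ⟨w₁, hw₁D, hw₁0, hw₁⟩ : ∃ w₁ ∈ D k, w₁ ≠ 0 ∧ Has Q M s w₁ := by
    have h1 := hsw.map (g := refl Q a hQa * refl Q a' hQa0')
      ((O Q).mul_mem (refl_mem_O _) (refl_mem_O _))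
      (hH (h.refl_mul_refl_mem hG hab.ha ha' hQa hQa0' hQa'.symm))
    have e1 : (refl Q a hQa * refl Q a' hQa0') s = s := by
      show refl Q a hQa (refl Q a' hQa0' s) = s
      rw [fixs s hks a' ha', fixs s hks a hab.ha]
    set μ := (Q a')⁻¹ * polar Q a' x with hμ
    have hμ0 : μ ≠ 0 := by
      refine mul_ne_zero (inv_ne_zero hQa0') ?_
      rw [h.polar_right k x ha', polar_comm]
      exact haw'
    have e2 : (refl Q a hQa * refl Q a' hQa0') ((-(Q x)⁻¹) • x) =
        (-(Q x)⁻¹) • x - (-(Q x)⁻¹ * μ) • refl Q a hQa a' := by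
      rw [map_smul]
      have : (refl Q a hQa * refl Q a' hQa0') x = x - μ • refl Q a hQa a' := by
        show refl Q a hQa (refl Q a' hQa0' x) = _
        rw [refl_apply (v := a'), map_sub, map_smul, ← hμ]
        congr 1
        rw [refl_apply, h.polar_right k x hab.ha, hab.hax, mul_zero, zero_smul, sub_zero]
      rw [this, smul_sub, smul_smul]
    rw [e1, e2] at h1
    have h2 := hsw.sub h1
    rw [sub_sub_cancel] at h2
    refine ⟨_, (D k).smul_mem _ (h.refl_mem hab.ha hQa ha'), ?_, h2⟩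
    refine smul_ne_zero (mul_ne_zero hκ hμ0) ?_
    intro h0
    rw [LinearEquiv.map_eq_zero_iff] at h0
    rw [h0, QuadraticMap.map_zero] at hQa0'
    exact hQa0' rfl
  -- a short singular vector `e = c₂ + d₂` orthogonal to `s`
  have hd0 : d ≠ 0 := by
    rintro rfl
    exact hQd (QuadraticMap.map_zero Q)
  obtain ⟨c₂, hc₂, d₂, hd₂, hQc₂, hQd₂, hcx₂, hdx₂, hcd₂⟩ :=
    exists_pair_sing (hD i) (hD j) hc hc0 hd hd0
  have hpis : p i s = c := by
    rw [hsdef, map_add, map_add, h.self i c hc, h.other i j hij d hd, hps i hil (Ne.symm hl'i)]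
    simp
  have hpjs : p j s = d := by
    rw [hsdef, map_add, map_add, h.other j i hij.symm c hc, h.self j d hd,
      hps j hjl (Ne.symm hl'j)]
    simp
  have hpls : p l s = c' := by
    rw [hsdef, map_add, hpix l (Ne.symm hil) (Ne.symm hjl), map_add, h.self l c' hc',
      h.other l l' (Ne.symm hl'l) d' hd']
    simp
  have hpcd₂ : polar Q c₂ d₂ = 0 := h.orth i j hij c₂ hc₂ d₂ hd₂
  have hes : polar Q (c₂ + d₂) s = 0 := by
    rw [polar_add_left, h.polar_right i s hc₂, h.polar_right j s hd₂, hpis, hpjs, hcx₂, hdx₂, hcd₂]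
  have hQe : Q (c₂ + d₂) = 0 := by rw [Q_add, hpcd₂, add_zero, hcd₂]
  have hpe : ∀ m, m ≠ i → m ≠ j → p m (c₂ + d₂) = 0 := by
    intro m h1 h2
    rw [map_add, h.other m i h1 c₂ hc₂, h.other m j h2 d₂ hd₂, add_zero]
  have he0 : c₂ + d₂ ≠ 0 := by
    intro h0
    have := congrArg (p i) h0
    rw [map_add, h.self i c₂ hc₂, h.other i j hij d₂ hd₂, add_zero, map_zero] at this
    rw [this, QuadraticMap.map_zero] at hQc₂
    exact hQc₂ rfl
  have hgs : (refl Q c₂ hQc₂ * refl Q d₂ hQd₂) s = s - (c₂ + d₂) := by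
    show refl Q c₂ hQc₂ (refl Q d₂ hQd₂ s) = _
    rw [refl_pair_apply h hd₂ hQd₂ (by rw [hpjs]; exact hdx₂), refl_pair_apply h hc₂ hQc₂ (by
      rw [map_sub, h.other i j hij d₂ hd₂, sub_zero, hpis]; exact hcx₂)]
    abel
  obtain ⟨g, hgH, hg⟩ := exists_mem h hG k (hrep k)
    ((O Q).mul_mem (refl_mem_O (Q := Q) hQc₂) (refl_mem_O (Q := Q) hQd₂))
    ((stabFamily D).mul_mem (h.refl_mem_stabFamily hc₂ hQc₂) (h.refl_mem_stabFamily hd₂ hQd₂))
  have hgs' : g s = s - (c₂ + d₂) := by rw [hg s hks, hgs]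
  have hgO := E_le_O hgH.2
  -- `g` preserves `D k`
  have hgk : ∀ z ∈ D k, g z ∈ D k := by
    intro z hz
    refine h.mem_of fun m hmk => ?_
    -- the component of `g z` in `D m`
    by_contra hne
    obtain ⟨y, hy, hgy⟩ := (h.nondegOn hG.nondeg m).exists_polar_eq (h.mem m (g z)) hne 1
    rw [← h.polar_left m (g z) hy] at hgy
    -- `y = g y'` with `y'` without component in `D k`
    have hy' : (refl Q c₂ hQc₂ * refl Q d₂ hQd₂) ((refl Q d₂ hQd₂ * refl Q c₂ hQc₂) y) = y := by
      show refl Q c₂ hQc₂ (refl Q d₂ hQd₂ (refl Q d₂ hQd₂ (refl Q c₂ hQc₂ y))) = y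
      have e1 : ∀ z, refl Q d₂ hQd₂ (refl Q d₂ hQd₂ z) = z := fun z =>
        LinearEquiv.congr_fun (refl_mul_self hQd₂) z
      have e2 : ∀ z, refl Q c₂ hQc₂ (refl Q c₂ hQc₂ z) = z := fun z =>
        LinearEquiv.congr_fun (refl_mul_self hQc₂) z
      rw [e1, e2]
    have hky : p k ((refl Q d₂ hQd₂ * refl Q c₂ hQc₂) y) = 0 := by
      show p k (refl Q d₂ hQd₂ (refl Q c₂ hQc₂ y)) = 0
      rw [h.proj_refl_ne hkj hd₂ hQd₂, h.proj_refl_ne hki hc₂ hQc₂, h.other k m hmk.symm y hy]
    have hgy' := hg _ hky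
    rw [hy'] at hgy'
    rw [← hgy', polar_map hgO, h.polar_right k _ hz, hky, polar_zero_right] at hgy
    exact zero_ne_one hgy
  have hsw₂ := hw₁.map hgO (hH hgH)
  rw [hgs'] at hsw₂
  have hw₂D := hgk w₁ hw₁D
  have hw₂0 : g w₁ ≠ 0 := by
    intro h0
    rw [LinearEquiv.map_eq_zero_iff] at h0
    exact hw₁0 h0
  have hks₂ : p k (s - (c₂ + d₂)) = 0 := by rw [map_sub, hks, hpe k hki hkj, sub_zero]
  -- make it non-orthogonal to `w₁`
  obtain ⟨y, hyD, hyH, hyw⟩ : ∃ y ∈ D k, Has Q M (s - (c₂ + d₂)) y ∧ polar Q w₁ y ≠ 0 := by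
    by_cases h0 : polar Q w₁ (g w₁) = 0
    · obtain ⟨z, hz, hQz, hz1, hz2⟩ := (hD k).exists_nonorth hq hw₂D hw₂0 hw₂D hw₂0 hw₁D hw₁0
      have hQw₂ := (hD k).ne hw₂D hw₂0
      have hQz0 : Q z ≠ 0 := by rw [hQz]; exact hQw₂
      have h1 := hsw₂.map (g := refl Q z hQz0 * refl Q (g w₁) hQw₂)
        ((O Q).mul_mem (refl_mem_O _) (refl_mem_O _))
        (hH (h.refl_mul_refl_mem hG hz hw₂D hQz0 hQw₂ hQz))
      have e1 : (refl Q z hQz0 * refl Q (g w₁) hQw₂) (s - (c₂ + d₂)) = s - (c₂ + d₂) := by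
        show refl Q z hQz0 (refl Q (g w₁) hQw₂ (s - (c₂ + d₂))) = _
        rw [fixs _ hks₂ _ hw₂D, fixs _ hks₂ _ hz]
      rw [e1] at h1
      refine ⟨_, h.refl_mem hz hQz0 (h.refl_mem hw₂D hQw₂ hw₂D), h1, ?_⟩
      show polar Q w₁ (refl Q z hQz0 (refl Q (g w₁) hQw₂ (g w₁))) ≠ 0
      have e2 : refl Q (g w₁) hQw₂ (g w₁) = -(g w₁) := by
        rw [refl_apply, polar_self']
        have : (Q (g w₁))⁻¹ * (2 * Q (g w₁)) = 2 := by field_simp
        rw [this, two_smul]
        abel
      rw [e2, refl_apply, polar_sub_right, polar_neg_right, h0, polar_smul_right, polar_neg_right,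
        neg_zero, zero_sub, neg_ne_zero, smul_eq_mul]
      exact mul_ne_zero (mul_ne_zero (inv_ne_zero hQz0) (neg_ne_zero.2 (by rw [polar_comm]; exact hz1)))
        hz2
    · exact ⟨g w₁, hw₂D, hsw₂, h0⟩
  have hss : polar Q s (s - (c₂ + d₂)) = 0 := by
    rw [polar_sub_right, polar_self', hQs, mul_zero, polar_comm Q s, hes, sub_zero]
  have hw₁s₂ : polar Q w₁ (s - (c₂ + d₂)) = 0 := by
    rw [h.polar_right k _ hw₁D, hks₂, polar_zero_right]
  have hsy : polar Q s y = 0 := by rw [h.polar_left k s hyD, hks, polar_zero_left]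
  have h1 := hw₁.comm hyH hss hw₁s₂
  rw [hsy, zero_smul, mul_zero, add_zero, zero_sub] at h1
  have h2 := (h1.add_smul_self (polar Q w₁ y)).neg
  have e3 : -(-(polar Q w₁ y • s) + polar Q w₁ y • (s - (c₂ + d₂))) =
      polar Q w₁ y • (c₂ + d₂) := by module
  rw [e3] at h2
  have hQe' : Q (polar Q w₁ y • (c₂ + d₂)) = 0 := by rw [QuadraticMap.map_smul, hQe, smul_zero]
  have h3 := h2.swap hQe'
  refine ⟨polar Q w₁ y • (c₂ + d₂), -(s - (c₂ + d₂)), smul_ne_zero hyw he0, h3, {i, j},
    Finset.card_le_two, ?_, l, ?_, ?_⟩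
  · intro m hm
    simp only [Finset.mem_insert, Finset.mem_singleton, not_or] at hm
    rw [map_smul, hpe m hm.1 hm.2, smul_zero]
  · simp only [Finset.mem_insert, Finset.mem_singleton, not_or]
    exact ⟨Ne.symm hil, Ne.symm hjl⟩
  · rw [map_neg, map_sub, hpls, hpe l (Ne.symm hil) (Ne.symm hjl), sub_zero]
    refine neg_ne_zero.2 ?_
    intro h0
    rw [h0, QuadraticMap.map_zero] at hQc'
    exact hQc' rfl

/-- The additive group of the `w` with `siegel s w ∈ M`. -/
def hasGroup (Q : QuadraticForm F V) (M : Subgroup (V ≃ₗ[F] V)) {s : V} (hs : Q s = 0) :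
    AddSubgroup V where
  carrier := {w | Has Q M s w}
  add_mem' ha hb := Has.add ha hb
  zero_mem' := has_zero hs
  neg_mem' ha := Has.neg ha

/-- One Siegel transformation at `s` with nonzero component in `D j` gives all those with second vector in
`D j`, if `s` has no component in two members `D j` and `D l`. -/
theorem has_member (hq : Nat.card F ≠ 3) (hG : Good Q) (h : Dec Q D p) (hD : ∀ i, AP Q (D i))
    (hMO : M ≤ O Q) (hH : stabFamily D ⊓ E Q ≤ M) {s w₀ : V} {j l : Fin t} (hjl : j ≠ l)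
    (hsj : p j s = 0) (hsl : p l s = 0) (hw : Has Q M s w₀) (hwj : p j w₀ ≠ 0) {w : V}
    (hwD : w ∈ D j) : Has Q M s w := by
  obtain ⟨a, b, hab⟩ := (hD j).exists_fr (h.mem j w₀) hwj
  obtain ⟨a', ha', hQa', haw', -⟩ := (hD j).exists_nonorth hq hab.ha hab.ha0 (h.mem j w₀) hwj
    (h.mem j w₀) hwj
  have hQa := (hD j).ne hab.ha hab.ha0
  have hQa0' : Q a' ≠ 0 := by rw [hQa']; exact hQa
  have fixs : ∀ c (hc : c ∈ D j) (hQc : Q c ≠ 0), refl Q c hQc s = s := by
    intro c hc hQc
    rw [refl_apply, h.polar_right j s hc, hsj, polar_zero_right, mul_zero, zero_smul, sub_zero]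
  have fixs' : ∀ c (hc : c ∈ D l) (hQc : Q c ≠ 0), refl Q c hQc s = s := by
    intro c hc hQc
    rw [refl_apply, h.polar_right l s hc, hsl, polar_zero_right, mul_zero, zero_smul, sub_zero]
  -- a nonzero vector of `D j`
  have h1 := hw.map (g := refl Q a hQa * refl Q a' hQa0')
    ((O Q).mul_mem (refl_mem_O _) (refl_mem_O _))
    (hH (h.refl_mul_refl_mem hG hab.ha ha' hQa hQa0' hQa'.symm))
  have e1 : (refl Q a hQa * refl Q a' hQa0') s = s := by
    show refl Q a hQa (refl Q a' hQa0' s) = s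
    rw [fixs a' ha', fixs a hab.ha]
  set μ := (Q a')⁻¹ * polar Q a' w₀ with hμ
  have hμ0 : μ ≠ 0 := by
    refine mul_ne_zero (inv_ne_zero hQa0') ?_
    rw [h.polar_right j w₀ ha', polar_comm]
    exact haw'
  have e2 : (refl Q a hQa * refl Q a' hQa0') w₀ = w₀ - μ • refl Q a hQa a' := by
    show refl Q a hQa (refl Q a' hQa0' w₀) = _
    rw [refl_apply (v := a'), map_sub, map_smul, ← hμ]
    congr 1
    rw [refl_apply, h.polar_right j w₀ hab.ha, hab.hax, mul_zero, zero_smul, sub_zero]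
  rw [e1, e2] at h1
  have h2 := hw.sub h1
  rw [sub_sub_cancel] at h2
  have hmem : μ • refl Q a hQa a' ∈ D j :=
    (D j).smul_mem _ (h.refl_mem hab.ha hQa ha')
  have hne : μ • refl Q a hQa a' ≠ 0 := by
    refine smul_ne_zero hμ0 ?_
    intro h0
    rw [LinearEquiv.map_eq_zero_iff] at h0
    rw [h0, QuadraticMap.map_zero] at hQa0'
    exact hQa0' rfl
  refine (hD j).mem_of_closed (hasGroup Q M hw.sing) ?_ (w := μ • refl Q a hQa a') h2 hmem hne hwD
  intro c hc hQc y hy hyD
  obtain ⟨c', hc', -, hQc'⟩ := (hD l).exists_value (Q c) hQc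
  have hQc0' : Q c' ≠ 0 := by rw [hQc']; exact hQc
  have h3 := Has.map (show Has Q M s y from hy) (g := refl Q c hQc * refl Q c' hQc0')
    ((O Q).mul_mem (refl_mem_O _) (refl_mem_O _))
    (hH (h.refl_mul_refl_mem hG hc hc' hQc hQc0' hQc'.symm))
  have e3 : (refl Q c hQc * refl Q c' hQc0') s = s := by
    show refl Q c hQc (refl Q c' hQc0' s) = s
    rw [fixs' c' hc', fixs c hc]
  have e4 : (refl Q c hQc * refl Q c' hQc0') y = refl Q c hQc y := by
    show refl Q c hQc (refl Q c' hQc0' y) = refl Q c hQc y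
    rw [refl_apply (v := c'), h.orth l j hjl.symm c' hc' y hyD, mul_zero, zero_smul, sub_zero]
  rw [e3, e4] at h3
  exact h3

omit [Finite F] in
/-- Passing to another member by a swap. -/
theorem has_other (hG : Good Q) (h : Dec Q D p)
    (hiso : ∀ i j, ∃ e : D i ≃ₗ[F] D j, ∀ z : D i, Q (e z : V) = Q (z : V))
    (hrep : ∀ m : Fin t, ∀ v : F, v ≠ 0 → ∃ y ∈ D m, Q y = v)
    (hMO : M ≤ O Q) (hH : stabFamily D ⊓ E Q ≤ M) {s : V} {i j m : Fin t} (hij : i ≠ j)
    (hmj : m ≠ j) (hsi : p i s = 0) (hsj : p j s = 0) (hsm : p m s = 0)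
    (hw : ∀ w ∈ D j, Has Q M s w) {w : V} (hwD : w ∈ D i) : Has Q M s w := by
  obtain ⟨e, he⟩ := hiso j i
  obtain ⟨τ, hτO, hτD, hτ0, hτj, -⟩ := DecTools.exists_swap h (Ne.symm hij) e he
  obtain ⟨g, hg, hg'⟩ := exists_mem h hG m (hrep m) hτO hτD
  have h1 := (hw _ (Submodule.coe_mem (e.symm ⟨w, hwD⟩))).map (E_le_O hg.2) (hH hg)
  rw [hg' s hsm, hτ0 s hsj hsi, hg' _ (h.other m j hmj _ (Submodule.coe_mem _)),
    hτj _ (Submodule.coe_mem _), Subtype.coe_eta, LinearEquiv.apply_symm_apply] at h1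
  exact h1

/-- From `s` to singular vectors `u` of `D a + D b`. -/
theorem has_of_two (hq : Nat.card F ≠ 3) (hG : Good Q) (h : Dec Q D p) (hD : ∀ i, AP Q (D i))
    (hiso : ∀ i j, ∃ e : D i ≃ₗ[F] D j, ∀ z : D i, Q (e z : V) = Q (z : V)) (ht : 5 ≤ t)
    (hMO : M ≤ O Q) (hH : stabFamily D ⊓ E Q ≤ M) {s u : V} {a b : Fin t} (hs0 : s ≠ 0)
    (hsa : p a s = 0) (hsb : p b s = 0) (ha : ∀ w ∈ D a, Has Q M s w) (hb : ∀ w ∈ D b, Has Q M s w)
    (hab : a ≠ b) (hu : Q u = 0) (hup : ∀ i, i ≠ a → i ≠ b → p i u = 0) {i : Fin t} (hia : i ≠ a)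
    (hib : i ≠ b) {w : V} (hw : w ∈ D i) : Has Q M u w := by
  have hus : u = p a u + p b u := by
    refine h.ext fun k => ?_
    rw [map_add]
    by_cases hka : k = a
    · subst hka
      rw [h.self k _ (h.mem k u), h.other k b hab _ (h.mem b u), add_zero]
    by_cases hkb : k = b
    · subst hkb
      rw [h.self k _ (h.mem k u), h.other k a hka _ (h.mem a u), zero_add]
    rw [hup k hka hkb, h.other k a hka _ (h.mem a u), h.other k b hkb _ (h.mem b u), add_zero]
  have h1 : Has Q M s u := by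
    rw [hus]
    exact (ha _ (h.mem a u)).add (hb _ (h.mem b u))
  have h2 := h1.swap hu
  obtain ⟨j, hj⟩ : ∃ j, p j s ≠ 0 := by
    by_contra hc
    push Not at hc
    exact hs0 (h.eq_zero hc)
  have hja : j ≠ a := by rintro rfl; exact hj hsa
  have hjb : j ≠ b := by rintro rfl; exact hj hsb
  have hj' : p j (-s) ≠ 0 := by rw [map_neg]; exact neg_ne_zero.2 hj
  obtain ⟨l, hl⟩ := exists_notMem_finset ({a, b, j} : Finset (Fin t))
    (lt_of_le_of_lt Finset.card_le_three (by omega))
  simp only [Finset.mem_insert, Finset.mem_singleton, not_or] at hl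
  have h3 : ∀ w ∈ D j, Has Q M u w := fun w hw =>
    has_member hq hG h hD hMO hH (Ne.symm hl.2.2) (hup j hja hjb) (hup l hl.1 hl.2.1) h2 hj' hw
  by_cases hij : i = j
  · subst hij
    exact h3 w hw
  obtain ⟨m, hm⟩ := exists_notMem_finset ({a, b, j, i} : Finset (Fin t))
    (lt_of_le_of_lt Finset.card_le_four (by omega))
  simp only [Finset.mem_insert, Finset.mem_singleton, not_or] at hm
  exact has_other hG h hiso (fun m v hv => by
    obtain ⟨y, hy, -, hQy⟩ := (hD m).exists_value v hv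
    exact ⟨y, hy, hQy⟩) hMO hH hij hm.2.2.1 (hup i hia hib) (hup j hja hjb) (hup m hm.1 hm.2.1) h3 hw

omit [Finite F] in
theorem exists_sing_pair' (h : Dec Q D p) (hrep : ∀ m : Fin t, ∀ v : F, v ≠ 0 → ∃ y ∈ D m, Q y = v)
    {a b : Fin t} (hab : a ≠ b) :
    ∃ u, Q u = 0 ∧ p a u ≠ 0 ∧ ∀ i, i ≠ a → i ≠ b → p i u = 0 := by
  obtain ⟨c, hc, hQc⟩ := hrep a 1 one_ne_zero
  obtain ⟨d, hd, hQd⟩ := hrep b (-1) (neg_ne_zero.2 one_ne_zero)
  refine ⟨c + d, ?_, ?_, ?_⟩
  · rw [Q_add, hQc, hQd, h.orth a b hab c hc d hd]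
    ring
  · rw [map_add, h.self a c hc, h.other a b hab d hd, add_zero]
    rintro rfl
    rw [QuadraticMap.map_zero] at hQc
    exact zero_ne_one hQc
  · intro i hia hib
    rw [map_add, h.other i a hia c hc, h.other i b hib d hd, add_zero]

/-- **Non-rigid overgroups contain `E Q`.** -/
theorem E_le_of_not_rigid (hq : Nat.card F ≠ 3) (hG : Good Q) (h : Dec Q D p)
    (hD : ∀ i, AP Q (D i)) (hiso : ∀ i j, ∃ e : D i ≃ₗ[F] D j, ∀ z : D i, Q (e z : V) = Q (z : V))
    (ht : 5 ≤ t) (hMO : M ≤ O Q) (hH : stabFamily D ⊓ E Q ≤ M) (hR : ¬ Rigid Q D M) : E Q ≤ M := by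
  classical
  have hrep : ∀ m : Fin t, ∀ v : F, v ≠ 0 → ∃ y ∈ D m, Q y = v := fun m v hv => by
    obtain ⟨y, hy, -, hQy⟩ := (hD m).exists_value v hv
    exact ⟨y, hy, hQy⟩
  obtain ⟨x, hx, hxD⟩ : ∃ x, Linked Q D M x ∧ ∀ i, x ∉ D i := by
    unfold Rigid at hR
    push Not at hR
    obtain ⟨i, a, ha, hQa, x, hQx, hM, hx⟩ := hR
    exact ⟨x, ⟨hQx, i, a, ha, hQa, hM⟩, hx⟩
  obtain ⟨x', hx', i₁, i₂, i₃, h12, h13, h23, hc1, hc2, hc3⟩ :=
    exists_three hq hG h hD hiso (by omega) hMO hH hx hxD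
  obtain ⟨s, w, hs0, hsw, S, hS, hpS, a, haS, haw⟩ :=
    exists_siegel hq hG h hD (by omega) hMO hH hx' h12 h13 h23 hc1 hc2 hc3
  obtain ⟨b, hb⟩ := exists_notMem_finset (insert a S)
    (lt_of_le_of_lt (Finset.card_insert_le _ _) (by omega))
  obtain ⟨m, hm⟩ := exists_notMem_finset (insert b (insert a S))
    (lt_of_le_of_lt (Finset.card_insert_le _ _)
      (by have := Finset.card_insert_le a S; omega))
  simp only [Finset.mem_insert, not_or] at hb hm
  have hab : a ≠ b := Ne.symm hb.1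
  have hA : ∀ w ∈ D a, Has Q M s w := fun w hw =>
    has_member hq hG h hD hMO hH hab (hpS a haS) (hpS b hb.2) hsw haw hw
  have hB : ∀ w ∈ D b, Has Q M s w := fun w hw =>
    has_other hG h hiso hrep hMO hH hb.1 hm.2.1 (hpS b hb.2) (hpS a haS) (hpS m hm.2.2) hA hw
  -- `u ∈ D a + D b`
  obtain ⟨u, hu, hua, hup⟩ := exists_sing_pair' h hrep hab
  have hu0 : u ≠ 0 := by
    rintro rfl
    exact hua (map_zero _)
  have hU : ∀ i, i ≠ a → i ≠ b → ∀ w ∈ D i, Has Q M u w := fun i hia hib w hw =>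
    has_of_two hq hG h hD hiso (by omega) hMO hH hs0 (hpS a haS) (hpS b hb.2) hA hB hab hu hup hia hib hw
  -- `c`, `d` two other members
  obtain ⟨c, hc⟩ := exists_notMem_finset ({a, b} : Finset (Fin t))
    (lt_of_le_of_lt Finset.card_le_two (by omega))
  obtain ⟨d, hd⟩ := exists_notMem_finset ({a, b, c} : Finset (Fin t))
    (lt_of_le_of_lt Finset.card_le_three (by omega))
  simp only [Finset.mem_insert, Finset.mem_singleton, not_or] at hc hd
  obtain ⟨hca, hcb⟩ := hc
  obtain ⟨hda, hdb, hdc⟩ := hd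
  have hcd : c ≠ d := Ne.symm hdc
  have full : ∀ v, Q v = 0 → (∀ i, i ≠ c → i ≠ d → p i v = 0) → Full Q M v := by
    intro v hv hvp
    have hV : ∀ i, i ≠ c → i ≠ d → ∀ w ∈ D i, Has Q M v w := fun i hic hid w hw =>
      has_of_two hq hG h hD hiso (by omega) hMO hH hu0 (hup c hca hcb) (hup d hda hdb)
        (hU c hca hcb) (hU d hda hdb) hcd hv hvp hic hid hw
    refine ⟨hv, fun z hz => ?_⟩
    -- the part of `z` in `D c + D d`
    set z' := p c z + p d z with hz'
    have hvz' : polar Q v z' = 0 := by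
      have h1 : polar Q (∑ i, p i v) z = ∑ i, polar Q (p i v) z :=
        map_sum ((polarBilin Q).flip z) (fun i => p i v) Finset.univ
      rw [h.sum, hz] at h1
      have h2 : ∀ i, i ≠ c → i ≠ d → polar Q (p i v) z = 0 := by
        intro i hic hid
        rw [hvp i hic hid, polar_zero_left]
      rw [← Finset.sum_subset (Finset.subset_univ ({c, d} : Finset (Fin t))) (by
        intro i _ hi
        simp only [Finset.mem_insert, Finset.mem_singleton, not_or] at hi
        exact h2 i hi.1 hi.2), Finset.sum_pair hcd] at h1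
      rw [hz', polar_add_right, h.polar_left c v (h.mem c z), h.polar_left d v (h.mem d z),
        ← h.polar_right c z (h.mem c v), ← h.polar_right d z (h.mem d v)]
      exact h1.symm
    have hVsum : ∀ S : Finset (Fin t), c ∉ S → d ∉ S → Has Q M v (∑ i ∈ S, p i z) := by
      intro S
      induction S using Finset.induction_on with
      | empty =>
        intro _ _
        rw [Finset.sum_empty]
        exact has_zero hv
      | insert i S hi ih =>
        intro hcS hdS
        simp only [Finset.mem_insert, not_or] at hcS hdS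
        rw [Finset.sum_insert hi]
        exact (hV i (Ne.symm hcS.1) (Ne.symm hdS.1) _ (h.mem i z)).add (ih hcS.2 hdS.2)
    have hzsum : z = (∑ i ∈ (Finset.univ : Finset (Fin t)) \ {c, d}, p i z) + z' := by
      rw [hz', ← Finset.sum_pair (f := fun i => p i z) hcd, Finset.sum_sdiff (Finset.subset_univ _), h.sum]
    have hz'H : Has Q M v z' := by
      have h1 : Has Q M u z' := (hU c hca hcb _ (h.mem c z)).add (hU d hda hdb _ (h.mem d z))
      obtain ⟨b', hb', hub'⟩ := (h.nondegOn hG.nondeg a).exists_polar_eq (h.mem a u) hua 1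
      have h2 : Has Q M v b' := hV a (Ne.symm hca) (Ne.symm hda) b' hb'
      have hub1 : polar Q u b' = 1 := by rw [h.polar_left a u hb']; exact hub'
      have huv : polar Q u v = 0 := by
        have hus : u = p a u + p b u := by
          refine h.ext fun k => ?_
          rw [map_add]
          by_cases hka : k = a
          · subst hka
            rw [h.self k _ (h.mem k u), h.other k b hab _ (h.mem b u), add_zero]
          by_cases hkb : k = b
          · subst hkb
            rw [h.self k _ (h.mem k u), h.other k a hka _ (h.mem a u), zero_add]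
          rw [hup k hka hkb, h.other k a hka _ (h.mem a u), h.other k b hkb _ (h.mem b u), add_zero]
        rw [hus, polar_add_left, h.polar_right a v (h.mem a u), h.polar_right b v (h.mem b u),
          hvp a (Ne.symm hca) (Ne.symm hda), hvp b (Ne.symm hcb) (Ne.symm hdb), polar_zero_right,
          polar_zero_right, add_zero]
      have hz'v : polar Q z' v = 0 := by rw [polar_comm]; exact hvz'
      have hz'b : polar Q z' b' = 0 := by
        rw [hz', polar_add_left, h.orth c a hca _ (h.mem c z) b' hb',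
          h.orth d a hda _ (h.mem d z) b' hb', add_zero]
      have h3 := h1.comm h2 huv hz'v
      rw [hub1, hz'b, zero_add, mul_one, one_smul] at h3
      have h4 : Has Q M v (Q z' • u) := by
        have hus : u = p a u + p b u := by
          refine h.ext fun k => ?_
          rw [map_add]
          by_cases hka : k = a
          · subst hka
            rw [h.self k _ (h.mem k u), h.other k b hab _ (h.mem b u), add_zero]
          by_cases hkb : k = b
          · subst hkb
            rw [h.self k _ (h.mem k u), h.other k a hka _ (h.mem a u), zero_add]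
          rw [hup k hka hkb, h.other k a hka _ (h.mem a u), h.other k b hkb _ (h.mem b u), add_zero]
        rw [hus, smul_add]
        exact (hV a (Ne.symm hca) (Ne.symm hda) _ ((D a).smul_mem _ (h.mem a u))).add
          (hV b (Ne.symm hcb) (Ne.symm hdb) _ ((D b).smul_mem _ (h.mem b u)))
      have h5 := h3.add h4
      rwa [sub_add_cancel] at h5
    rw [hzsum]
    refine (hVsum _ ?_ ?_).add hz'H
    · simp
    · simp
  -- a pair of nonorthogonal singular vectors of `D c + D d`
  obtain ⟨v, hv, hvc, hvp⟩ := exists_sing_pair' h hrep hcd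
  obtain ⟨e, he, hve⟩ := (h.nondegOn hG.nondeg c).exists_polar_eq (h.mem c v) hvc 1
  have he0 : e ≠ 0 := by
    rintro rfl
    rw [polar_zero_right] at hve
    exact zero_ne_one hve
  have hQe := (hD c).ne he he0
  have hev : polar Q e v = 1 := by rw [h.polar_right c v he, polar_comm]; exact hve
  have hv' : Q (refl Q e hQe v) = 0 := by rw [mem_O.1 (refl_mem_O hQe)]; exact hv
  refine E_le_of_full_pair hG (full v hv hvp) (full (refl Q e hQe v) hv' ?_) ?_
  · intro i hic hid
    rw [h.proj_refl_ne hic he hQe, hvp i hic hid]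
  · rw [refl_apply, polar_sub_right, polar_self', hv, polar_smul_right, hev, polar_comm Q v e, hev]
    simp only [mul_zero, mul_one, smul_eq_mul, zero_sub, ne_eq, neg_eq_zero, inv_eq_zero]
    exact hQe

end Planes

end Cfsg.Agent.H886.PlaneNonRigid
end

-- part: H886/PlaneMax
section
/-!
**The stabiliser in `Ω` of an orthogonal decomposition into anisotropic planes is maximal**
(`|F| ≠ 3`, at least five members).
-/

set_option autoImplicit false

namespace Cfsg.Agent.H886.PlaneMax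

open QuadraticMap Cfsg.Agent.LieClassical.OrthCore Cfsg.Agent.LieClassical.OrthTrans
  Cfsg.Agent.LieClassical.OrthFinite Cfsg.Agent.LieClassical.OrthSimple Cfsg.Agent.H883.Bridge
  Cfsg.Agent.H883.Root Cfsg.Agent.H883.Sub Cfsg.Agent.H886.Decomp Cfsg.Agent.H886.Rigid
  Cfsg.Agent.H886.Plane Cfsg.Agent.H886.PlaneRigid Cfsg.Agent.H886.DecTools
  Cfsg.Agent.H886.PlaneNonRigid

section Free

variable {F V : Type*} [Field F] [AddCommGroup V] [Module F V] {Q : QuadraticForm F V} {t : ℕ}
  {D : Fin t → Submodule F V} {p : Fin t → V →ₗ[F] V}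

/-- `E Q` does not preserve an orthogonal decomposition with at least three members representing all
nonzero scalars. -/
theorem not_E_le [FiniteDimensional F V] (hG : Good Q) (h : Dec Q D p)
    (hrep : ∀ m : Fin t, ∀ v : F, v ≠ 0 → ∃ y ∈ D m, Q y = v) (ht : 3 ≤ t) :
    ¬ E Q ≤ stabFamily D := by
  intro hE
  let a : Fin t := ⟨0, by omega⟩
  let b : Fin t := ⟨1, by omega⟩
  let c : Fin t := ⟨2, by omega⟩
  have hab : a ≠ b := by simp [a, b, Fin.ext_iff]
  have hac : a ≠ c := by simp [a, c, Fin.ext_iff]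
  have hbc : b ≠ c := by simp [b, c, Fin.ext_iff]
  obtain ⟨ua, hua, hQua⟩ := hrep a 1 one_ne_zero
  obtain ⟨ub, hub, hQub⟩ := hrep b (-1) (neg_ne_zero.2 one_ne_zero)
  obtain ⟨w, hw, hQw⟩ := hrep c 1 one_ne_zero
  have hu : Q (ua + ub) = 0 := by
    rw [Q_add, hQua, hQub, h.orth a b hab ua hua ub hub]
    ring
  have hua0 : ua ≠ 0 := by
    rintro rfl
    rw [QuadraticMap.map_zero] at hQua
    exact zero_ne_one hQua
  have hub0 : ub ≠ 0 := by
    rintro rfl
    rw [QuadraticMap.map_zero] at hQub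
    exact (neg_ne_zero.2 one_ne_zero) hQub.symm
  have hw0 : w ≠ 0 := by
    rintro rfl
    rw [QuadraticMap.map_zero] at hQw
    exact zero_ne_one hQw
  obtain ⟨e, he, hue⟩ := (h.nondegOn hG.nondeg a).exists_polar_eq hua hua0 1
  have huw : polar Q (ua + ub) w = 0 := by
    rw [polar_add_left, h.orth a c hac ua hua w hw, h.orth b c hbc ub hub w hw, add_zero]
  have hue' : polar Q (ua + ub) e = 1 := by
    rw [polar_add_left, hue, h.orth b a hab.symm ub hub e he, add_zero]
  have hwe : polar Q w e = 0 := h.orth c a hac.symm w hw e he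
  obtain ⟨σ, hσ⟩ := hE (siegel_mem_E hu huw)
  have h1 : siegel Q (ua + ub) w hu huw e ∈ D (σ a) := by
    rw [← hσ a]
    exact ⟨e, he, rfl⟩
  have h2 : siegel Q (ua + ub) w hu huw e = e + w - (ua + ub) := by
    rw [siegel_apply, hue', hwe, hQw]
    simp
  rw [h2] at h1
  have hpc : p c (e + w - (ua + ub)) = w := by
    rw [map_sub, map_add, map_add, h.other c a hac.symm e he, h.self c w hw,
      h.other c a hac.symm ua hua, h.other c b hbc.symm ub hub]
    simp
  have hpb : p b (e + w - (ua + ub)) = -ub := by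
    rw [map_sub, map_add, map_add, h.other b a hab.symm e he, h.other b c hbc w hw,
      h.other b a hab.symm ua hua, h.self b ub hub]
    simp
  by_cases hc : σ a = c
  · rw [hc] at h1
    have := h.other b c hbc _ h1
    rw [hpb] at this
    exact hub0 (neg_eq_zero.1 this)
  · have := h.other c (σ a) (Ne.symm hc) _ h1
    rw [hpc] at this
    exact hw0 this

/-- **Maximality, coordinate free.** -/
theorem maximal_free [Finite F] [FiniteDimensional F V] (hq : Nat.card F ≠ 3) (hG : Good Q)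
    (horth : ∀ i j, i ≠ j → ∀ x ∈ D i, ∀ y ∈ D j, polar Q x y = 0) (hspan : iSup D = ⊤)
    (hrank : ∀ i, Module.finrank F (D i) = 2) (hanis : ∀ i, ∀ x ∈ D i, Q x = 0 → x = 0)
    (hiso : ∀ i j, ∃ e : D i ≃ₗ[F] D j, ∀ z : D i, Q (e z : V) = Q (z : V)) (ht : 5 ≤ t) :
    Cfsg.Geo.IsMaximalIn (E Q) (stabFamily D ⊓ E Q) := by
  obtain ⟨p, h⟩ := exists_dec hG.nondeg horth hspan
  have hD : ∀ i, AP Q (D i) := fun i => ⟨hrank i, h.nondegOn hG.nondeg i, hanis i⟩
  have hrep : ∀ m : Fin t, ∀ v : F, v ≠ 0 → ∃ y ∈ D m, Q y = v := fun m v hv => by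
    obtain ⟨y, hy, -, hQy⟩ := (hD m).exists_value v hv
    exact ⟨y, hy, hQy⟩
  refine ⟨lt_of_le_of_ne inf_le_right fun heq => ?_, fun M hM1 hM2 => ?_⟩
  · apply not_E_le hG h hrep (by omega)
    rw [← heq]
    exact inf_le_left
  · by_cases hR : Rigid Q D M
    · left
      exact le_antisymm (le_inf (le_stabFamily hq hG h hD (by omega) (hM2.trans E_le_O) hM1 hR) hM2)
        hM1
    · right
      exact le_antisymm hM2 (E_le_of_not_rigid hq hG h hD hiso ht (hM2.trans E_le_O) hM1 hR)

end Free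

section Geo

variable {ι : Type} [Fintype ι] [DecidableEq ι] {F : Type*} [Field F]

omit [Fintype ι] [DecidableEq ι] in
/-- A nondegenerate plane not of plus type is anisotropic. -/
theorem aniso_of_not_plus {Q : (ι → F) → F} {W : Submodule F (ι → F)}
    (hs : ∀ (c : F) (v : ι → F), Q (c • v) = c * c * Q v)
    (hW : Module.finrank F W = 2) (hplus : ¬ Cfsg.Geo.IsPlusTypeOn Q W) :
    ∀ x ∈ W, Q x = 0 → x = 0 := by
  intro x hx hQx
  by_contra hx0
  apply hplus
  refine ⟨Submodule.span F {x}, (Submodule.span_singleton_le_iff_mem x W).2 hx, ?_, ?_⟩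
  · intro w hw
    obtain ⟨c, rfl⟩ := Submodule.mem_span_singleton.1 hw
    rw [hs, hQx, mul_zero]
  · rw [finrank_span_singleton hx0, hW]

/-- **Orthogonal decompositions into anisotropic planes: the stabiliser in `Ω` is maximal.**
Any nondegenerate quadratic form over a finite field with `|F| ≠ 3`, dimension at least 10. -/
theorem decomposition_planes_maximal [Fintype F] (hq : Fintype.card F ≠ 3) {Q : (ι → F) → F}
    (hQ : Cfsg.Geo.IsNondegenerateQuadraticForm Q) (hn : 9 ≤ Fintype.card ι) {t : ℕ}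
    {D : Fin t → Submodule F (ι → F)} (hD : Cfsg.Geo.IsOrthogonalMDecomposition Q 2 D)
    (hminus : ∀ i, ¬ Cfsg.Geo.IsPlusTypeOn Q (D i)) :
    Cfsg.Geo.IsMaximalIn (Cfsg.Geo.omegaGL Q)
      (Cfsg.Geo.decompositionStabilizer D ⊓ Cfsg.Geo.omegaGL Q) := by
  have htk := Cfsg.Agent.H886.finrank_mdecomposition hD.decomp.decomp
  refine decompositionStabilizer_maximal hQ (by omega) D ?_
  rintro Q' rfl hG
  refine maximal_free (by rw [Nat.card_eq_fintype_card]; exact hq) hG
    (fun i j hij x hx y hy => hD.decomp.orthogonal i j hij x hx y hy)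
    hD.decomp.decomp.iSup_eq_top hD.decomp.decomp.finrank_eq
    (fun i => aniso_of_not_plus (fun c v => by rw [QuadraticMap.map_smul, smul_eq_mul])
      (hD.decomp.decomp.finrank_eq i) (hminus i))
    (fun i j => hD.isometric i j) (by omega)

end Geo

end Cfsg.Agent.H886.PlaneMax
end
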